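import Mathlib
import Cfsg.Prelude.Def_LieExceptional
import Cfsg.Agent.Lib.Helper15.Frob
import Cfsg.Agent.Lib.Helper15.FpfSylow
import Cfsg.Agent.Lib.Helper1.Fitting
import Cfsg.Agent.Lib.Helper2.GrpNil

set_option autoImplicit false

namespace Cfsg.Agent.Lib.Helper15

open Pointwise

/-- In a nilpotent group a `p`-element commuting with a Sylow `p`-subgroup is central. -/
theorem mem_center_of_commute_sylow {H : Type*} [Group H] [Finite H] [Group.IsNilpotent H]
    (p : ℕ) [hp : Fact p.Prime] (P : Sylow p H) (w : H) (k : ℕ) (hw : orderOf w = p ^ k)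
    (hP : ∀ x ∈ P, w * x = x * w) : w ∈ Subgroup.center H := by
  classical
  have h1 := Cfsg.Agent.Lib.Helper1.iSup_sylow_eq_top H
    (fun q : Nat.Primes => if h : p = (q : ℕ) then (h ▸ P : Sylow (q : ℕ) H) else default)
  have h2 : (⊤ : Subgroup H) ≤ Subgroup.centralizer {w} := by
    rw [← h1]
    apply iSup_le
    intro q
    obtain ⟨q, hqp⟩ := q
    by_cases hq : p = q
    · subst hq
      simp only [dif_pos]
      intro x hx
      rw [Subgroup.mem_centralizer_singleton_iff]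
      exact (hP x hx).symm
    · simp only [dif_neg hq]
      intro x hx
      rw [Subgroup.mem_centralizer_singleton_iff]
      have := Fact.mk hqp
      obtain ⟨j, hj⟩ := (IsPGroup.iff_orderOf.mp (default : Sylow q H).2) ⟨x, hx⟩
      rw [Subgroup.orderOf_mk] at hj
      have hne : q ≠ p := fun e => hq e.symm
      have hcop : (orderOf x).Coprime (orderOf w) := by
        rw [hj, hw]
        exact Nat.Coprime.pow _ _ ((Nat.coprime_primes hqp hp.out).mpr hne)
      exact (Cfsg.Agent.Lib.Helper2.commute_of_coprime_of_isNilpotent hcop).eq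
  rw [Subgroup.mem_center_iff]
  intro g
  have := h2 (Subgroup.mem_top g)
  rw [Subgroup.mem_centralizer_singleton_iff] at this
  exact this

variable {G : Type*} [Group G] [Finite G]

/-- subgroup version -/
theorem central_of_sylow (H : Subgroup G) (hH : Group.IsNilpotent H) (p : ℕ) [Fact p.Prime]
    (S : Sylow p G) (hS : (S : Subgroup G) ≤ H) (w : G) (hwS : w ∈ S)
    (hw : ∀ x ∈ S, w * x = x * w) : ∀ h ∈ H, h * w = w * h := by
  obtain ⟨k, hk⟩ := (IsPGroup.iff_orderOf.mp S.2) ⟨w, hwS⟩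
  rw [Subgroup.orderOf_mk] at hk
  have h1 := mem_center_of_commute_sylow p (S.subtype hS) ⟨w, hS hwS⟩ k
    (by rw [Subgroup.orderOf_mk]; exact hk) (by
      intro x hx
      have hx' : (x : G) ∈ S := by
        have : x ∈ ((S.subtype hS : Sylow p H) : Subgroup H) := hx
        rw [Sylow.coe_subtype] at this
        exact Subgroup.mem_subgroupOf.mp this
      exact Subtype.ext (hw x hx'))
  intro h hh
  exact congrArg Subtype.val (Subgroup.mem_center_iff.mp h1 ⟨h, hh⟩)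

theorem centralizer_eq_of_central (hCN : Cfsg.IsCNGroup G) (H : Subgroup G)
    (hmax : ∀ L : Subgroup G, Group.IsNilpotent L → H ≤ L → L = H) (u : G) (hu1 : u ≠ 1)
    (hu : ∀ h ∈ H, h * u = u * h) : Subgroup.centralizer ({u} : Set G) = H := by
  apply hmax _ (hCN u hu1)
  intro h hh
  rw [Subgroup.mem_centralizer_singleton_iff]
  exact hu h hh

theorem exists_center_ne_one (p : ℕ) [Fact p.Prime] (S : Subgroup G) (hS : IsPGroup p S)
    (hne : S ≠ ⊥) : ∃ u ∈ S, u ≠ 1 ∧ ∀ x ∈ S, u * x = x * u := by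
  have : Nontrivial S := (Subgroup.nontrivial_iff_ne_bot S).mpr hne
  have hcn : Nontrivial (Subgroup.center S) := hS.center_nontrivial
  obtain ⟨⟨u, huc⟩, hu1⟩ := exists_ne (1 : Subgroup.center S)
  refine ⟨u, u.2, fun e => hu1 (Subtype.ext (Subtype.ext e)), ?_⟩
  intro x hx
  exact (congrArg Subtype.val (Subgroup.mem_center_iff.mp huc ⟨x, hx⟩)).symm

/-- A maximal nilpotent subgroup of a CN-group contains a Sylow `p`-subgroup of the group for each
prime `p` dividing its order. -/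
theorem cn_exists_sylow_le (hCN : Cfsg.IsCNGroup G) (H : Subgroup G) (hH : Group.IsNilpotent H)
    (hmax : ∀ L : Subgroup G, Group.IsNilpotent L → H ≤ L → L = H) (p : ℕ) [Fact p.Prime]
    (hp : p ∣ Nat.card H) : ∃ S : Sylow p G, (S : Subgroup G) ≤ H := by
  obtain ⟨P⟩ : Nonempty (Sylow p H) := inferInstance
  have hPne : (P : Subgroup H) ≠ ⊥ := P.ne_bot_of_dvd_card hp
  obtain ⟨z, hzP, hz1, hzc⟩ := exists_center_ne_one p (P : Subgroup H) P.2 hPne
  obtain ⟨k, hk⟩ := (IsPGroup.iff_orderOf.mp P.2) ⟨z, hzP⟩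
  rw [Subgroup.orderOf_mk] at hk
  have hzZ := mem_center_of_commute_sylow p P z k hk hzc
  have hCz : Subgroup.centralizer ({(z : G)} : Set G) = H := by
    apply centralizer_eq_of_central hCN H hmax (z : G) (fun e => hz1 (Subtype.ext e))
    intro h hh
    exact congrArg Subtype.val (Subgroup.mem_center_iff.mp hzZ ⟨h, hh⟩)
  obtain ⟨S, hS⟩ := (P.2.map H.subtype).exists_le_sylow
  have hzS : (z : G) ∈ (S : Subgroup G) := hS ⟨z, hzP, rfl⟩
  have hSne : (S : Subgroup G) ≠ ⊥ := by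
    intro e
    rw [e, Subgroup.mem_bot] at hzS
    exact hz1 (Subtype.ext hzS)
  obtain ⟨w, hwS, hw1, hwc⟩ := exists_center_ne_one p (S : Subgroup G) S.2 hSne
  have hwH : w ∈ H := by
    rw [← hCz, Subgroup.mem_centralizer_singleton_iff]
    exact hwc z hzS
  obtain ⟨j, hj⟩ := (IsPGroup.iff_orderOf.mp S.2) ⟨w, hwS⟩
  rw [Subgroup.orderOf_mk] at hj
  have hwZ := mem_center_of_commute_sylow p P ⟨w, hwH⟩ j (by rw [Subgroup.orderOf_mk]; exact hj) (by
    intro x hx
    exact Subtype.ext (hwc x (hS ⟨x, hx, rfl⟩)))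
  have hCw : Subgroup.centralizer ({w} : Set G) = H := by
    apply centralizer_eq_of_central hCN H hmax w hw1
    intro h hh
    exact congrArg Subtype.val (Subgroup.mem_center_iff.mp hwZ ⟨h, hh⟩)
  refine ⟨S, ?_⟩
  intro x hx
  rw [← hCw, Subgroup.mem_centralizer_singleton_iff]
  exact (hwc x hx).symm

theorem cn_coprime_index (hCN : Cfsg.IsCNGroup G) (H : Subgroup G) (hH : Group.IsNilpotent H)
    (hmax : ∀ L : Subgroup G, Group.IsNilpotent L → H ≤ L → L = H) :
    (Nat.card H).Coprime H.index := by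
  apply Nat.coprime_of_dvd
  intro p hp hpH hpi
  have := Fact.mk hp
  obtain ⟨S, hS⟩ := cn_exists_sylow_le hCN H hH hmax p hpH
  exact S.not_dvd_index (hpi.trans (Subgroup.index_dvd_of_le hS))

/-- For a Sylow subgroup `S ≠ 1` of `G` inside the maximal nilpotent subgroup `H`, `H` is the
centraliser of each nontrivial element of `Z(S)`. -/
theorem cn_centralizer_eq (hCN : Cfsg.IsCNGroup G) (H : Subgroup G) (hH : Group.IsNilpotent H)
    (hmax : ∀ L : Subgroup G, Group.IsNilpotent L → H ≤ L → L = H) (p : ℕ) [Fact p.Prime]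
    (S : Sylow p G) (hS : (S : Subgroup G) ≤ H) (u : G) (huS : u ∈ S) (hu1 : u ≠ 1)
    (hu : ∀ x ∈ S, u * x = x * u) : Subgroup.centralizer ({u} : Set G) = H :=
  centralizer_eq_of_central hCN H hmax u hu1 (central_of_sylow H hH p S hS u huS hu)

/-- conjugating: if `S ≤ H₁` and `g • S ≤ H₂` then `H₂ = H₁ ^ g`. -/
theorem cn_conj_eq (hCN : Cfsg.IsCNGroup G) (H₁ H₂ : Subgroup G) (hH₁ : Group.IsNilpotent H₁)
    (hmax₁ : ∀ L : Subgroup G, Group.IsNilpotent L → H₁ ≤ L → L = H₁)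
    (hH₂ : Group.IsNilpotent H₂)
    (hmax₂ : ∀ L : Subgroup G, Group.IsNilpotent L → H₂ ≤ L → L = H₂) (p : ℕ) [Fact p.Prime]
    (S : Sylow p G) (hSne : (S : Subgroup G) ≠ ⊥) (hS₁ : (S : Subgroup G) ≤ H₁) (g : G)
    (hS₂ : ((g • S : Sylow p G) : Subgroup G) ≤ H₂) :
    H₂ = H₁.map (MulAut.conj g).toMonoidHom := by
  obtain ⟨u, huS, hu1, huc⟩ := exists_center_ne_one p (S : Subgroup G) S.2 hSne
  have hC₁ := cn_centralizer_eq hCN H₁ hH₁ hmax₁ p S hS₁ u huS hu1 huc
  have hmem : ∀ y : G, y ∈ ((g • S : Sylow p G) : Subgroup G) ↔ g⁻¹ * y * g ∈ S := by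
    intro y
    rw [Sylow.coe_subgroup_smul, mem_conj_smul_iff]
    exact Iff.rfl
  have hC₂ := cn_centralizer_eq hCN H₂ hH₂ hmax₂ p (g • S) hS₂ (g * u * g⁻¹)
    (by
      change g * u * g⁻¹ ∈ ((g • S : Sylow p G) : Subgroup G)
      rw [hmem]
      have : g⁻¹ * (g * u * g⁻¹) * g = u := by group
      rw [this]; exact huS)
    (by
      intro e
      apply hu1
      have : u = g⁻¹ * (g * u * g⁻¹) * g := by group
      rw [this, e]; group)
    (by
      intro y hy
      have hy' : g⁻¹ * y * g ∈ S := (hmem y).mp hy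
      have h1 := huc _ hy'
      calc g * u * g⁻¹ * y = g * (u * (g⁻¹ * y * g)) * g⁻¹ := by group
        _ = g * ((g⁻¹ * y * g) * u) * g⁻¹ := by rw [h1]
        _ = y * (g * u * g⁻¹) := by group)
  ext y
  rw [← hC₂, Subgroup.mem_centralizer_singleton_iff]
  constructor
  · intro hy
    refine ⟨g⁻¹ * y * g, ?_, ?_⟩
    · rw [SetLike.mem_coe, ← hC₁, Subgroup.mem_centralizer_singleton_iff]
      calc g⁻¹ * y * g * u = g⁻¹ * (y * (g * u * g⁻¹)) * g := by group
        _ = g⁻¹ * ((g * u * g⁻¹) * y) * g := by rw [hy]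
        _ = u * (g⁻¹ * y * g) := by group
    · simp [MulAut.conj_apply]
      group
  · rintro ⟨h, hh, rfl⟩
    rw [SetLike.mem_coe, ← hC₁, Subgroup.mem_centralizer_singleton_iff] at hh
    simp only [MulEquiv.coe_toMonoidHom, MulAut.conj_apply]
    calc g * h * g⁻¹ * (g * u * g⁻¹) = g * (h * u) * g⁻¹ := by group
      _ = g * (u * h) * g⁻¹ := by rw [hh]
      _ = g * u * g⁻¹ * (g * h * g⁻¹) := by group

/-- two Sylow subgroups of `G` inside a nilpotent subgroup coincide -/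
theorem sylow_eq_of_le_nilpotent (M : Subgroup G) (hM : Group.IsNilpotent M) (p : ℕ) [Fact p.Prime]
    (S₁ S₂ : Sylow p G) (h₁ : (S₁ : Subgroup G) ≤ M) (h₂ : (S₂ : Subgroup G) ≤ M) : S₁ = S₂ := by
  have hn : ((S₁.subtype h₁ : Sylow p M) : Subgroup M).Normal :=
    ((Group.isNilpotent_of_finite_tfae (G := M)).out 0 3 rfl rfl).mp hM p inferInstance _
  obtain ⟨m, hm⟩ := MulAction.exists_smul_eq M (S₁.subtype h₁) (S₂.subtype h₂)
  rw [Sylow.smul_eq_of_normal] at hm
  have h3 : ((S₁.subtype h₁ : Sylow p M) : Subgroup M) = ((S₂.subtype h₂ : Sylow p M) : Subgroup M) := by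
    rw [hm]
  rw [Sylow.coe_subtype, Sylow.coe_subtype] at h3
  apply Sylow.ext
  rw [← Subgroup.map_subgroupOf_eq_of_le h₁, ← Subgroup.map_subgroupOf_eq_of_le h₂, h3]

/-- every nilpotent subgroup lies in a maximal nilpotent subgroup -/
theorem exists_max_nilpotent (K : Subgroup G) (hK : Group.IsNilpotent K) :
    ∃ H : Subgroup G, K ≤ H ∧ Group.IsNilpotent H ∧
      ∀ L : Subgroup G, Group.IsNilpotent L → H ≤ L → L = H := by
  have : Nonempty {L : Subgroup G // K ≤ L ∧ Group.IsNilpotent L} := ⟨⟨K, le_rfl, hK⟩⟩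
  obtain ⟨⟨H, hKH, hH⟩, hmax⟩ := Finite.exists_max
    (fun L : {L : Subgroup G // K ≤ L ∧ Group.IsNilpotent L} => Nat.card (L : Subgroup G))
  refine ⟨H, hKH, hH, ?_⟩
  intro L hL hHL
  exact (Subgroup.eq_of_le_of_card_ge hHL (hmax ⟨L, hKH.trans hHL, hL⟩)).symm

/-- two maximal nilpotent subgroups of a CN-group are conjugate or of coprime orders -/
theorem cn_conj_or_coprime (hCN : Cfsg.IsCNGroup G) (H₁ H₂ : Subgroup G)
    (hH₁ : Group.IsNilpotent H₁)
    (hmax₁ : ∀ L : Subgroup G, Group.IsNilpotent L → H₁ ≤ L → L = H₁)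
    (hH₂ : Group.IsNilpotent H₂)
    (hmax₂ : ∀ L : Subgroup G, Group.IsNilpotent L → H₂ ≤ L → L = H₂) :
    (∃ g : G, H₂ = H₁.map (MulAut.conj g).toMonoidHom) ∨
      (Nat.card H₁).Coprime (Nat.card H₂) := by
  by_cases hc : (Nat.card H₁).Coprime (Nat.card H₂)
  · exact Or.inr hc
  · left
    obtain ⟨p, hp, h1, h2⟩ := Nat.Prime.not_coprime_iff_dvd.mp hc
    have := Fact.mk hp
    obtain ⟨S₁, hS₁⟩ := cn_exists_sylow_le hCN H₁ hH₁ hmax₁ p h1
    obtain ⟨S₂, hS₂⟩ := cn_exists_sylow_le hCN H₂ hH₂ hmax₂ p h2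
    obtain ⟨g, hg⟩ := MulAction.exists_smul_eq G S₁ S₂
    refine ⟨g, cn_conj_eq hCN H₁ H₂ hH₁ hmax₁ hH₂ hmax₂ p S₁ ?_ hS₁ g (by rw [hg]; exact hS₂)⟩
    exact S₁.ne_bot_of_dvd_card (h1.trans (Subgroup.card_subgroup_dvd_card H₁))

end Cfsg.Agent.Lib.Helper15
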