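import Mathlib

set_option autoImplicit false

namespace Cfsg.Agent.Lib.Helper15

open Polynomial

variable {F : Type*} [Field F]

theorem exists_pairing_monic (g : F[X]) (hg : g.Monic) :
    ∃ β : AdjoinRoot g →ₗ[F] AdjoinRoot g →ₗ[F] F,
      (∀ c a b, β (c * a) b = β a (c * b)) ∧ (∀ a, (∀ b, β a b = 0) → a = 0) := by
  classical
  let lam : AdjoinRoot g →ₗ[F] F := (Polynomial.lcoeff F (g.natDegree - 1)) ∘ₗ AdjoinRoot.modByMonicHom hg
  refine ⟨(LinearMap.mul F (AdjoinRoot g)).compr₂ lam, ?_, ?_⟩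
  · intro c a b
    simp only [LinearMap.compr₂_apply, LinearMap.mul_apply']
    congr 1
    ring
  · intro a ha
    by_contra hne
    obtain ⟨r₀, rfl⟩ := AdjoinRoot.mk_surjective a
    set r := r₀ %ₘ g with hr
    have hmk : AdjoinRoot.mk g r = AdjoinRoot.mk g r₀ := by
      have := AdjoinRoot.mk_leftInverse hg (AdjoinRoot.mk g r₀)
      rwa [AdjoinRoot.modByMonicHom_mk] at this
    have hr0 : r ≠ 0 := by
      intro h
      apply hne
      rw [← hmk, h, map_zero]
    have hdeg : r.degree < g.degree := Polynomial.degree_modByMonic_lt r₀ hg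
    have hnat : r.natDegree < g.natDegree := Polynomial.natDegree_lt_natDegree hr0 hdeg
    obtain ⟨k, hk⟩ : ∃ k, g.natDegree - 1 = r.natDegree + k := ⟨g.natDegree - 1 - r.natDegree, by omega⟩
    have h1 := ha (AdjoinRoot.mk g (X ^ k))
    simp only [LinearMap.compr₂_apply, LinearMap.mul_apply', lam, LinearMap.comp_apply] at h1
    rw [← hmk, ← map_mul, AdjoinRoot.modByMonicHom_mk] at h1
    have hdeg2 : (r * X ^ k).degree < g.degree := by
      rw [Polynomial.degree_mul, Polynomial.degree_X_pow, Polynomial.degree_eq_natDegree hr0,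
        Polynomial.degree_eq_natDegree hg.ne_zero]
      norm_cast
      omega
    rw [(Polynomial.modByMonic_eq_self_iff hg).mpr hdeg2, Polynomial.lcoeff_apply] at h1
    rw [hk, Polynomial.coeff_mul_X_pow] at h1
    exact hr0 (Polynomial.leadingCoeff_eq_zero.mp h1)

theorem exists_pairing (f : F[X]) (hf : f ≠ 0) :
    ∃ β : (F[X] ⧸ F[X] ∙ f) →ₗ[F] (F[X] ⧸ F[X] ∙ f) →ₗ[F] F,
      (∀ a b, β ((X : F[X]) • a) b = β a ((X : F[X]) • b)) ∧ (∀ a, (∀ b, β a b = 0) → a = 0) := by
  have hg : (f * C f.leadingCoeff⁻¹).Monic := Polynomial.monic_mul_leadingCoeff_inv hf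
  have hspan : (F[X] ∙ f) = F[X] ∙ (f * C f.leadingCoeff⁻¹) := by
    have hu : IsUnit (C f.leadingCoeff⁻¹ : F[X]) := by
      apply Polynomial.isUnit_C.mpr
      exact (inv_ne_zero (Polynomial.leadingCoeff_ne_zero.mpr hf)).isUnit
    exact (Ideal.span_singleton_mul_right_unit hu f).symm
  rw [hspan]
  obtain ⟨β, h1, h2⟩ := exists_pairing_monic _ hg
  exact ⟨β, fun a b => h1 (AdjoinRoot.mk _ X) a b, h2⟩

open DirectSum in
theorem exists_selfadjoint_form {V : Type*} [AddCommGroup V] [Module F V] [FiniteDimensional F V]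
    (φ : Module.End F V) :
    ∃ B : V →ₗ[F] V →ₗ[F] F, (∀ u w, B (φ u) w = B u (φ w)) ∧ (∀ u, (∀ w, B u w = 0) → u = 0) := by
  classical
  have tors : Module.IsTorsion F[X] (Module.AEval' φ) := Module.AEval.isTorsion_of_finiteDimensional F V φ
  obtain ⟨ι, _, p, hp, e, ⟨l⟩⟩ := Module.equiv_directSum_of_isTorsion tors
  have hne : ∀ i, p i ^ e i ≠ 0 := fun i => pow_ne_zero _ (hp i).ne_zero
  choose β hβ1 hβ2 using fun i => exists_pairing (p i ^ e i) (hne i)
  let W : ι → Type _ := fun i => F[X] ⧸ F[X] ∙ (p i ^ e i)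
  let ψ : V →ₗ[F] (⨁ i, F[X] ⧸ F[X] ∙ (p i ^ e i)) :=
    (l.toLinearMap.restrictScalars F) ∘ₗ (Module.AEval'.of φ).toLinearMap
  have hψ : ∀ v, ψ (φ v) = (X : F[X]) • ψ v := by
    intro v
    simp only [ψ, LinearMap.comp_apply, LinearEquiv.coe_coe, LinearMap.restrictScalars_apply]
    rw [← Module.AEval'.X_smul_of, map_smul]
  have hψinj : Function.Injective ψ := by
    intro a b hab
    simp only [ψ, LinearMap.comp_apply, LinearEquiv.coe_coe, LinearMap.restrictScalars_apply] at hab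
    exact (Module.AEval'.of φ).injective (l.injective hab)
  have hψsurj : Function.Surjective ψ := by
    intro d
    refine ⟨(Module.AEval'.of φ).symm (l.symm d), ?_⟩
    simp [ψ]
  let pr : ∀ i, (⨁ i, F[X] ⧸ F[X] ∙ (p i ^ e i)) →ₗ[F] (F[X] ⧸ F[X] ∙ (p i ^ e i)) :=
    fun i => DirectSum.component F ι (fun i => F[X] ⧸ F[X] ∙ (p i ^ e i)) i
  let B : V →ₗ[F] V →ₗ[F] F := ∑ i, (β i).compl₁₂ (pr i ∘ₗ ψ) (pr i ∘ₗ ψ)
  have hB : ∀ u w, B u w = ∑ i, β i (ψ u i) (ψ w i) := by
    intro u w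
    simp only [B, LinearMap.sum_apply, LinearMap.compl₁₂_apply, LinearMap.comp_apply]
    rfl
  refine ⟨B, ?_, ?_⟩
  · intro u w
    rw [hB, hB]
    apply Finset.sum_congr rfl
    intro i _
    rw [hψ, hψ]
    exact hβ1 i _ _
  · intro u hu
    apply hψinj
    rw [map_zero]
    ext i
    apply hβ2 i
    intro b
    obtain ⟨w, hw⟩ := hψsurj (DirectSum.of (fun i => F[X] ⧸ F[X] ∙ (p i ^ e i)) i b)
    have h1 := hu w
    rw [hB, hw] at h1
    rw [Finset.sum_eq_single i] at h1
    · simpa using h1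
    · intro j _ hj
      rw [DirectSum.of_eq_of_ne _ _ _ hj]
      simp
    · intro h; exact absurd (Finset.mem_univ i) h

theorem matrix_isConj_transpose {ι : Type*} [Fintype ι] [DecidableEq ι] (A : Matrix ι ι F) :
    IsConj A A.transpose := by
  obtain ⟨B, hB1, hB2⟩ := exists_selfadjoint_form (Matrix.toLin' A)
  obtain ⟨P, hP⟩ : ∃ P : Matrix ι ι F, P = LinearMap.toMatrix₂' F B := ⟨_, rfl⟩
  have hBP : ∀ x y, B x y = x ⬝ᵥ (P.mulVec y) := by
    intro x y
    rw [hP, ← Matrix.toLinearMap₂'_apply', Matrix.toLinearMap₂'_toMatrix']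
  have hunit : IsUnit P := by
    rw [← Matrix.vecMul_injective_iff_isUnit]
    intro x y hxy
    have hxy' : Matrix.vecMul x P = Matrix.vecMul y P := hxy
    rw [← sub_eq_zero]
    apply hB2
    intro w
    rw [hBP, Matrix.dotProduct_mulVec, Matrix.sub_vecMul, hxy', sub_self, zero_dotProduct]
  have hcomm : P * A = A.transpose * P := by
    have h : ∀ x y, x ⬝ᵥ ((P * A).mulVec y) = x ⬝ᵥ ((A.transpose * P).mulVec y) := by
      intro x y
      have h1 := hB1 x y
      rw [hBP, hBP, Matrix.toLin'_apply, Matrix.toLin'_apply] at h1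
      rw [← Matrix.mulVec_mulVec, ← h1, ← Matrix.mulVec_mulVec, Matrix.dotProduct_mulVec x,
        Matrix.vecMul_transpose]
    ext i j
    have := h (Pi.single i 1) (Pi.single j 1)
    simpa using this
  exact ⟨hunit.unit, hcomm⟩

end Cfsg.Agent.Lib.Helper15
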