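import Mathlib

set_option autoImplicit false

namespace Cfsg.Agent.Lib.Helper15

/-- the sign character of `ZMod 2` -/
def chi2 (a : ZMod 2) : ℤ := if a = 0 then 1 else -1

theorem chi2_add (a b : ZMod 2) : chi2 (a + b) = chi2 a * chi2 b := by
  revert a b; decide

theorem chi2_zero : chi2 0 = 1 := rfl

theorem chi2_one : chi2 1 = -1 := rfl

theorem chi2_mul_self (a : ZMod 2) : chi2 a * chi2 a = 1 := by
  revert a; decide

theorem zmod2_eq_one_of_ne_zero {a : ZMod 2} (h : a ≠ 0) : a = 1 := by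
  revert a; decide

variable {V : Type*} [AddCommGroup V] [Fintype V]

/-- sum of the sign character along an additive nonzero functional vanishes -/
theorem sum_chi2_eq_zero (l : V → ZMod 2) (hadd : ∀ u u', l (u + u') = l u + l u')
    (hne : ∃ u, l u ≠ 0) : ∑ u, chi2 (l u) = 0 := by
  obtain ⟨u₀, hu₀⟩ := hne
  have h1 : l u₀ = 1 := zmod2_eq_one_of_ne_zero hu₀
  have h2 : ∑ u, chi2 (l u) = ∑ u, chi2 (l (u + u₀)) :=
    (Equiv.sum_comp (Equiv.addRight u₀) (fun u => chi2 (l u))).symm
  have h3 : ∑ u, chi2 (l (u + u₀)) = - ∑ u, chi2 (l u) := by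
    rw [← Finset.sum_neg_distrib]
    apply Finset.sum_congr rfl
    intro u _
    rw [hadd, h1, chi2_add, chi2_one]; ring
  omega

/-- the Gauss sum of a quadratic function over `ZMod 2` -/
def gaussSum (q : V → ZMod 2) : ℤ := ∑ v, chi2 (q v)

theorem gaussSum_sq (f : V → V → ZMod 2) (q : V → ZMod 2)
    (hq : ∀ u v, q (u + v) = q u + q v + f u v)
    (hadd : ∀ u u' t, f (u + u') t = f u t + f u' t)
    (hnd : ∀ t, t ≠ 0 → ∃ u, f u t ≠ 0) :
    gaussSum q ^ 2 = Fintype.card V := by
  classical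
  have hf0 : ∀ u, f u 0 = 0 := by
    intro u
    have h1 := hq u 0
    have h2 := hq 0 0
    have h3 := hadd 0 0 0
    simp only [add_zero] at h1 h2 h3
    have h4 : f 0 0 = 0 := by
      generalize f 0 0 = a at h3; revert a; decide
    have h5 : q 0 = 0 := by
      rw [h4] at h2
      generalize q 0 = a at h2; revert a; decide
    rw [h5] at h1
    generalize q u = a at h1
    generalize f u 0 = b at h1 ⊢
    revert a b; decide
  have hq0 : q 0 = 0 := by
    have h2 := hq 0 0
    rw [hf0] at h2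
    simp only [add_zero] at h2
    generalize q 0 = a at h2; revert a; decide
  unfold gaussSum
  rw [sq, Finset.sum_mul_sum]
  have h1 : ∀ u, ∑ v, chi2 (q u) * chi2 (q v) = ∑ t, chi2 (q t) * chi2 (f u t) := by
    intro u
    rw [← Equiv.sum_comp (Equiv.addLeft u) (fun v => chi2 (q u) * chi2 (q v))]
    apply Finset.sum_congr rfl
    intro t _
    simp only [Equiv.coe_addLeft]
    rw [hq, chi2_add, chi2_add, ← mul_assoc, ← mul_assoc, chi2_mul_self, one_mul]
  rw [Finset.sum_congr rfl (fun u _ => h1 u), Finset.sum_comm]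
  rw [Finset.sum_eq_single (0 : V)]
  · simp [hq0, hf0, chi2_zero]
  · intro t _ ht
    rw [← Finset.mul_sum, sum_chi2_eq_zero (fun u => f u t) (fun u u' => hadd u u' t) (hnd t ht), mul_zero]
  · intro h; exact absurd (Finset.mem_univ _) h

theorem gaussSum_ne_zero (f : V → V → ZMod 2) (q : V → ZMod 2)
    (hq : ∀ u v, q (u + v) = q u + q v + f u v)
    (hadd : ∀ u u' t, f (u + u') t = f u t + f u' t)
    (hnd : ∀ t, t ≠ 0 → ∃ u, f u t ≠ 0) :
    gaussSum q ≠ 0 := by
  intro h
  have h1 := gaussSum_sq f q hq hadd hnd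
  rw [h] at h1
  have : (Fintype.card V : ℤ) ≠ 0 := by
    have : 0 < Fintype.card V := Fintype.card_pos_iff.mpr ⟨0⟩
    omega
  apply this
  rw [← h1]; norm_num

theorem gaussSum_comp_equiv (q : V → ZMod 2) (g : V ≃ V) : gaussSum (fun v => q (g v)) = gaussSum q :=
  Equiv.sum_comp g (fun v => chi2 (q v))

theorem gaussSum_translate (f : V → V → ZMod 2) (q : V → ZMod 2)
    (hq : ∀ u v, q (u + v) = q u + q v + f u v) (w : V) :
    gaussSum (fun v => q v + f v w) = chi2 (q w) * gaussSum q := by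
  unfold gaussSum
  rw [← Equiv.sum_comp (Equiv.addRight w) (fun v => chi2 (q v)), Finset.mul_sum]
  apply Finset.sum_congr rfl
  intro v _
  simp only [Equiv.coe_addRight]
  rw [hq, chi2_add, chi2_add, chi2_add]
  have := chi2_mul_self (q w)
  linear_combination (- chi2 (q v) * chi2 (f v w)) * this

end Cfsg.Agent.Lib.Helper15
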