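import Mathlib
import Cfsg.Agent.Lib.Helper15.F2Gauss

set_option autoImplicit false

namespace Cfsg.Agent.Lib.Helper15

open Classical in
theorem sum_chi2_subgroup {V : Type*} [AddCommGroup V] [Fintype V] (f : V → V → ZMod 2)
    (haddr : ∀ v u u', f v (u + u') = f v u + f v u') (U : AddSubgroup V) (v : V) :
    ∑ u : U, chi2 (f v u) = if (∀ u ∈ U, f v u = 0) then (Fintype.card U : ℤ) else 0 := by
  split_ifs with h
  · rw [Finset.sum_congr rfl (fun u _ => by rw [h u u.2, chi2_zero])]
    simp
  · push Not at h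
    obtain ⟨u, hu, hne⟩ := h
    exact sum_chi2_eq_zero (fun u : U => f v u) (fun a b => haddr v a b) ⟨⟨u, hu⟩, hne⟩

section

variable {V : Type*} [AddCommGroup V] [Fintype V] (f : V → V → ZMod 2)
    (haddl : ∀ u u' t, f (u + u') t = f u t + f u' t)
    (haddr : ∀ v u u', f v (u + u') = f v u + f v u')
    (hnd : ∀ t, t ≠ 0 → ∃ u, f u t ≠ 0) (U : AddSubgroup V)

include haddl haddr hnd

open Classical in
theorem card_mul_card_perp :
    Fintype.card U * (Finset.univ.filter (fun v : V => ∀ u ∈ U, f v u = 0)).card = Fintype.card V := by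
  have hf0 : ∀ v, f v 0 = 0 := by
    intro v
    have h := haddr v 0 0
    rw [add_zero] at h
    generalize f v 0 = a at h; revert a; decide
  have h1 : ∑ v : V, ∑ u : U, chi2 (f v u)
      = (Fintype.card U : ℤ) * ((Finset.univ.filter (fun v : V => ∀ u ∈ U, f v u = 0)).card : ℤ) := by
    rw [Finset.sum_congr rfl (fun v _ => sum_chi2_subgroup f haddr U v), ← Finset.sum_filter,
      Finset.sum_const, nsmul_eq_mul, mul_comm]
  have h2 : ∑ v : V, ∑ u : U, chi2 (f v u) = (Fintype.card V : ℤ) := by
    rw [Finset.sum_comm, Finset.sum_eq_single (0 : U)]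
    · simp [hf0, chi2_zero]
    · intro u _ hu
      apply sum_chi2_eq_zero (fun v => f v u) (fun a b => haddl a b u)
      apply hnd
      intro h
      exact hu (Subtype.ext h)
    · intro h; exact absurd (Finset.mem_univ _) h
  rw [h1] at h2
  exact_mod_cast h2

variable (q : V → ZMod 2) (hq : ∀ u v, q (u + v) = q u + q v + f u v) (hU : ∀ u ∈ U, q u = 0)

include hq hU

open Classical in
theorem gaussSum_eq_sum_perp :
    gaussSum q = ∑ v ∈ Finset.univ.filter (fun v : V => ∀ u ∈ U, f v u = 0), chi2 (q v) := by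
  have hpos : (0 : ℤ) < Fintype.card U := by
    have : 0 < Fintype.card U := Fintype.card_pos_iff.mpr ⟨0⟩
    exact_mod_cast this
  have h1 : (Fintype.card U : ℤ) * gaussSum q = ∑ u : U, ∑ v : V, chi2 (q (v + u)) := by
    have : ∀ u : U, ∑ v : V, chi2 (q (v + u)) = gaussSum q := fun u =>
      Equiv.sum_comp (Equiv.addRight (u : V)) (fun v => chi2 (q v))
    rw [Finset.sum_congr rfl (fun u _ => this u)]
    simp
  have h2 : ∑ u : U, ∑ v : V, chi2 (q (v + u))
      = ∑ v : V, chi2 (q v) * ∑ u : U, chi2 (f v u) := by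
    rw [Finset.sum_comm]
    apply Finset.sum_congr rfl
    intro v _
    rw [Finset.mul_sum]
    apply Finset.sum_congr rfl
    intro u _
    rw [hq, hU u u.2, add_zero, chi2_add]
  have h3 : ∑ v : V, chi2 (q v) * ∑ u : U, chi2 (f v u)
      = (Fintype.card U : ℤ) * ∑ v ∈ Finset.univ.filter (fun v : V => ∀ u ∈ U, f v u = 0), chi2 (q v) := by
    rw [Finset.mul_sum, Finset.sum_filter]
    apply Finset.sum_congr rfl
    intro v _
    rw [sum_chi2_subgroup f haddr U v]
    split_ifs <;> ring
  rw [h2, h3] at h1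
  exact mul_left_cancel₀ hpos.ne' h1

open Classical in
theorem subgroup_subset_perp :
    Finset.univ.filter (fun v : V => v ∈ U) ⊆ Finset.univ.filter (fun v : V => ∀ u ∈ U, f v u = 0) := by
  intro v hv
  simp only [Finset.mem_filter, Finset.mem_univ, true_and] at hv ⊢
  intro u hu
  have h := hq v u
  rw [hU v hv, hU u hu, hU _ (U.add_mem hv hu)] at h
  simpa using h.symm

open Classical in
theorem card_filter_mem : (Finset.univ.filter (fun v : V => v ∈ U)).card = Fintype.card U := by
  rw [Fintype.card_subtype]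

theorem card_sq_le_of_singular : Nat.card U ^ 2 ≤ Fintype.card V := by
  classical
  rw [Nat.card_eq_fintype_card, ← card_mul_card_perp f haddl haddr hnd U, sq]
  apply Nat.mul_le_mul_left
  rw [← card_filter_mem f haddl haddr hnd U q hq hU]
  exact Finset.card_le_card (subgroup_subset_perp f haddl haddr hnd U q hq hU)

theorem gaussSum_eq_card_of_singular (hcard : Nat.card U ^ 2 = Fintype.card V) :
    gaussSum q = Nat.card U := by
  classical
  rw [Nat.card_eq_fintype_card] at hcard ⊢
  have hpos : 0 < Fintype.card U := Fintype.card_pos_iff.mpr ⟨0⟩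
  have h1 := card_mul_card_perp f haddl haddr hnd U
  rw [← hcard, sq] at h1
  have h2 : (Finset.univ.filter (fun v : V => ∀ u ∈ U, f v u = 0)).card = Fintype.card U :=
    Nat.eq_of_mul_eq_mul_left hpos h1
  have h3 : Finset.univ.filter (fun v : V => v ∈ U)
      = Finset.univ.filter (fun v : V => ∀ u ∈ U, f v u = 0) := by
    apply Finset.eq_of_subset_of_card_le (subgroup_subset_perp f haddl haddr hnd U q hq hU)
    rw [h2, card_filter_mem f haddl haddr hnd U q hq hU]
  rw [gaussSum_eq_sum_perp f haddl haddr hnd U q hq hU, ← h3]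
  rw [Finset.sum_congr rfl (fun v hv => by
    rw [hU v (by simpa using hv), chi2_zero])]
  rw [Finset.sum_const, card_filter_mem f haddl haddr hnd U q hq hU]
  simp

end

end Cfsg.Agent.Lib.Helper15
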