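import Mathlib
import Cfsg.Prelude.Def_Classical

set_option autoImplicit false

namespace Cfsg.Agent.Lib.Helper15

variable {F : Type*} [Field F] {m : ℕ}

/-- the polar form of `quadFormPlus` -/
def pol (m : ℕ) (F : Type*) [Field F] (x y : Fin m ⊕ Fin m → F) : F :=
  Cfsg.quadFormPlus m F (x + y) - Cfsg.quadFormPlus m F x - Cfsg.quadFormPlus m F y

theorem pol_eq (x y : Fin m ⊕ Fin m → F) :
    pol m F x y = ∑ i : Fin m, (x (.inl i) * y (.inr i) + y (.inl i) * x (.inr i)) := by
  unfold pol Cfsg.quadFormPlus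
  rw [← Finset.sum_sub_distrib, ← Finset.sum_sub_distrib]
  apply Finset.sum_congr rfl
  intro i _
  simp only [Pi.add_apply]
  ring

theorem pol_add_left (x x' y : Fin m ⊕ Fin m → F) : pol m F (x + x') y = pol m F x y + pol m F x' y := by
  rw [pol_eq, pol_eq, pol_eq, ← Finset.sum_add_distrib]
  apply Finset.sum_congr rfl
  intro i _
  simp only [Pi.add_apply]
  ring

theorem pol_comm (x y : Fin m ⊕ Fin m → F) : pol m F x y = pol m F y x := by
  rw [pol_eq, pol_eq]
  apply Finset.sum_congr rfl
  intro i _
  ring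

theorem pol_add_right (x y y' : Fin m ⊕ Fin m → F) : pol m F x (y + y') = pol m F x y + pol m F x y' := by
  rw [pol_comm, pol_add_left, pol_comm y, pol_comm y']

theorem pol_smul_left (c : F) (x y : Fin m ⊕ Fin m → F) : pol m F (c • x) y = c * pol m F x y := by
  rw [pol_eq, pol_eq, Finset.mul_sum]
  apply Finset.sum_congr rfl
  intro i _
  simp only [Pi.smul_apply, smul_eq_mul]
  ring

theorem pol_smul_right (c : F) (x y : Fin m ⊕ Fin m → F) : pol m F x (c • y) = c * pol m F x y := by
  rw [pol_comm, pol_smul_left, pol_comm]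

theorem pol_self (x : Fin m ⊕ Fin m → F) : pol m F x x = 2 * Cfsg.quadFormPlus m F x := by
  rw [pol_eq]
  unfold Cfsg.quadFormPlus
  rw [Finset.mul_sum]
  apply Finset.sum_congr rfl
  intro i _
  ring

theorem pol_single_inr (x : Fin m ⊕ Fin m → F) (i : Fin m) :
    pol m F x (Pi.single (.inr i) 1) = x (.inl i) := by
  classical
  rw [pol_eq, Finset.sum_eq_single i]
  · simp
  · intro j _ hj
    simp [Pi.single_apply, hj]
  · intro h; exact absurd (Finset.mem_univ _) h

theorem pol_single_inl (x : Fin m ⊕ Fin m → F) (i : Fin m) :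
    pol m F x (Pi.single (.inl i) 1) = x (.inr i) := by
  classical
  rw [pol_eq, Finset.sum_eq_single i]
  · simp
  · intro j _ hj
    simp [Pi.single_apply, hj]
  · intro h; exact absurd (Finset.mem_univ _) h

theorem pol_nondeg (x : Fin m ⊕ Fin m → F) (hx : x ≠ 0) : ∃ y, pol m F y x ≠ 0 := by
  classical
  by_contra hcon
  push Not at hcon
  apply hx
  funext j
  rcases j with i | i
  · have := hcon (Pi.single (.inr i) 1)
    rw [pol_comm, pol_single_inr] at this
    exact this
  · have := hcon (Pi.single (.inl i) 1)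
    rw [pol_comm, pol_single_inl] at this
    exact this

end Cfsg.Agent.Lib.Helper15
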