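import Mathlib
import Cfsg.Agent.Lib.Helper15.F2Isotropic
import Cfsg.Agent.Lib.Helper15.PlusPolar

set_option autoImplicit false

namespace Cfsg.Agent.Lib.Helper15

/-! facts on the plus and minus type forms over `ZMod 2` -/

theorem plus_hq (m : ℕ) (u v : Fin m ⊕ Fin m → ZMod 2) :
    Cfsg.quadFormPlus m (ZMod 2) (u + v)
      = Cfsg.quadFormPlus m (ZMod 2) u + Cfsg.quadFormPlus m (ZMod 2) v + pol m (ZMod 2) u v := by
  unfold pol; ring

/-- the standard maximal totally singular subspace of the plus form -/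
def plusLag (m : ℕ) : (Fin m → ZMod 2) →ₗ[ZMod 2] (Fin m ⊕ Fin m → ZMod 2) where
  toFun x := Sum.elim x 0
  map_add' x y := by ext (i | i) <;> simp
  map_smul' c x := by ext (i | i) <;> simp

theorem plusLag_injective (m : ℕ) : Function.Injective (plusLag m) := by
  intro x y h
  funext i
  exact congrFun h (Sum.inl i)

theorem plusLag_singular (m : ℕ) (x : Fin m → ZMod 2) : Cfsg.quadFormPlus m (ZMod 2) (plusLag m x) = 0 := by
  unfold Cfsg.quadFormPlus plusLag
  simp

theorem finrank_range_plusLag (m : ℕ) : Module.finrank (ZMod 2) (LinearMap.range (plusLag m)) = m := by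
  rw [LinearMap.finrank_range_of_inj (plusLag_injective m)]
  simp

theorem card_plus (m : ℕ) : Fintype.card (Fin m ⊕ Fin m → ZMod 2) = 2 ^ (2 * m) := by
  simp [ZMod.card, two_mul]

theorem natCard_submodule {V : Type*} [AddCommGroup V] [Module (ZMod 2) V] [Module.Finite (ZMod 2) V]
    (U : Submodule (ZMod 2) V) : Nat.card U.toAddSubgroup = 2 ^ Module.finrank (ZMod 2) U := by
  have h := Module.natCard_eq_pow_finrank (K := ZMod 2) (V := U)
  rw [Nat.card_zmod] at h
  exact h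

theorem gaussSum_plus (m : ℕ) : gaussSum (Cfsg.quadFormPlus m (ZMod 2)) = 2 ^ m := by
  have h := gaussSum_eq_card_of_singular (pol m (ZMod 2)) pol_add_left pol_add_right pol_nondeg
    (LinearMap.range (plusLag m)).toAddSubgroup (Cfsg.quadFormPlus m (ZMod 2)) (plus_hq m)
    (by rintro _ ⟨x, rfl⟩; exact plusLag_singular m x)
    (by rw [natCard_submodule, finrank_range_plusLag, card_plus, ← pow_mul, mul_comm])
  rw [h, natCard_submodule, finrank_range_plusLag]
  norm_cast

theorem finrank_le_of_singular_plus (m : ℕ) (U : Submodule (ZMod 2) (Fin m ⊕ Fin m → ZMod 2))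
    (hU : ∀ u ∈ U, Cfsg.quadFormPlus m (ZMod 2) u = 0) : Module.finrank (ZMod 2) U ≤ m := by
  have h := card_sq_le_of_singular (pol m (ZMod 2)) pol_add_left pol_add_right pol_nondeg
    U.toAddSubgroup (Cfsg.quadFormPlus m (ZMod 2)) (plus_hq m) hU
  rw [natCard_submodule, card_plus, ← pow_mul] at h
  have := (Nat.pow_le_pow_iff_right (by norm_num : 1 < 2)).mp h
  omega

/-- the polar form of the minus form -/
def polM (k : ℕ) (x y : (Fin k ⊕ Fin k) ⊕ Fin 2 → ZMod 2) : ZMod 2 :=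
  pol k (ZMod 2) (fun j => x (.inl j)) (fun j => y (.inl j))
    + (x (.inr 0) * y (.inr 1) + x (.inr 1) * y (.inr 0))

theorem minus_eq (k : ℕ) (v : (Fin k ⊕ Fin k) ⊕ Fin 2 → ZMod 2) :
    Cfsg.quadFormMinus k (ZMod 2) 1 1 v = Cfsg.quadFormPlus k (ZMod 2) (fun j => v (.inl j))
      + (v (.inr 0) ^ 2 + 1 * v (.inr 0) * v (.inr 1) + 1 * v (.inr 1) ^ 2) := rfl

theorem minus_hq (k : ℕ) (u v : (Fin k ⊕ Fin k) ⊕ Fin 2 → ZMod 2) :
    Cfsg.quadFormMinus k (ZMod 2) 1 1 (u + v)
      = Cfsg.quadFormMinus k (ZMod 2) 1 1 u + Cfsg.quadFormMinus k (ZMod 2) 1 1 v + polM k u v := by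
  rw [minus_eq, minus_eq, minus_eq, polM]
  have h1 : (fun j => (u + v) (Sum.inl j)) = (fun j => u (Sum.inl j)) + (fun j => v (Sum.inl j)) := rfl
  rw [h1, plus_hq]
  simp only [Pi.add_apply]
  have h2 : (2 : ZMod 2) = 0 := by decide
  linear_combination (u (.inr 0) * v (.inr 0) + u (.inr 1) * v (.inr 1)) * h2

theorem polM_add_left (k : ℕ) (x x' y : (Fin k ⊕ Fin k) ⊕ Fin 2 → ZMod 2) :
    polM k (x + x') y = polM k x y + polM k x' y := by
  unfold polM
  have h1 : (fun j => (x + x') (Sum.inl j)) = (fun j => x (Sum.inl j)) + (fun j => x' (Sum.inl j)) := rfl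
  rw [h1, pol_add_left]
  simp only [Pi.add_apply]
  ring

theorem polM_comm (k : ℕ) (x y : (Fin k ⊕ Fin k) ⊕ Fin 2 → ZMod 2) : polM k x y = polM k y x := by
  unfold polM
  rw [pol_comm]
  ring

theorem polM_add_right (k : ℕ) (x y y' : (Fin k ⊕ Fin k) ⊕ Fin 2 → ZMod 2) :
    polM k x (y + y') = polM k x y + polM k x y' := by
  rw [polM_comm, polM_add_left, polM_comm k y, polM_comm k y']

theorem polM_nondeg (k : ℕ) (x : (Fin k ⊕ Fin k) ⊕ Fin 2 → ZMod 2) (hx : x ≠ 0) :
    ∃ y, polM k y x ≠ 0 := by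
  classical
  by_contra hcon
  push Not at hcon
  apply hx
  have hA : (fun j => x (Sum.inl j)) = 0 := by
    by_contra hne
    obtain ⟨y, hy⟩ := pol_nondeg _ hne
    apply hy
    have := hcon (Sum.elim y 0)
    simpa [polM] using this
  funext j
  rcases j with j | j
  · exact congrFun hA j
  · have h0 := hcon (Pi.single (.inr 0) 1)
    have h1 := hcon (Pi.single (.inr 1) 1)
    have hz : ∀ (a : Fin 2), (fun j : Fin k ⊕ Fin k =>
        (Pi.single (Sum.inr a) 1 : (Fin k ⊕ Fin k) ⊕ Fin 2 → ZMod 2) (Sum.inl j)) = 0 := by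
      intro a; funext j; simp
    simp only [polM, hz, hA] at h0 h1
    have hp : pol k (ZMod 2) 0 0 = 0 := by simp [pol_eq]
    rw [hp] at h0 h1
    fin_cases j
    · simpa using h1
    · simpa using h0

theorem card_minus (k : ℕ) : Fintype.card ((Fin k ⊕ Fin k) ⊕ Fin 2 → ZMod 2) = 2 ^ (2 * (k + 1)) := by
  simp [ZMod.card]
  ring

theorem gaussSum_minus (k : ℕ) : gaussSum (Cfsg.quadFormMinus k (ZMod 2) 1 1) = - 2 ^ (k + 1) := by
  have h1 : gaussSum (Cfsg.quadFormMinus k (ZMod 2) 1 1)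
      = gaussSum (Cfsg.quadFormPlus k (ZMod 2))
        * ∑ z : Fin 2 → ZMod 2, chi2 (z 0 ^ 2 + 1 * z 0 * z 1 + 1 * z 1 ^ 2) := by
    unfold gaussSum
    rw [Finset.sum_mul_sum, ← Fintype.sum_prod_type',
      ← Equiv.sum_comp (Equiv.sumArrowEquivProdArrow (Fin k ⊕ Fin k) (Fin 2) (ZMod 2))]
    apply Finset.sum_congr rfl
    intro v _
    rw [minus_eq, chi2_add]
    rfl
  have h2 : ∑ z : Fin 2 → ZMod 2, chi2 (z 0 ^ 2 + 1 * z 0 * z 1 + 1 * z 1 ^ 2) = -2 := by decide
  rw [h1, h2, gaussSum_plus]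
  ring

theorem finrank_le_of_singular_minus (k : ℕ) (U : Submodule (ZMod 2) ((Fin k ⊕ Fin k) ⊕ Fin 2 → ZMod 2))
    (hU : ∀ u ∈ U, Cfsg.quadFormMinus k (ZMod 2) 1 1 u = 0) : Module.finrank (ZMod 2) U ≤ k := by
  have h := card_sq_le_of_singular (polM k) (polM_add_left k) (polM_add_right k) (polM_nondeg k)
    U.toAddSubgroup (Cfsg.quadFormMinus k (ZMod 2) 1 1) (minus_hq k) hU
  rw [natCard_submodule, card_minus, ← pow_mul] at h
  have h1 := (Nat.pow_le_pow_iff_right (by norm_num : 1 < 2)).mp h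
  by_contra hcon
  have h2 : Module.finrank (ZMod 2) U = k + 1 := by omega
  have h3 := gaussSum_eq_card_of_singular (polM k) (polM_add_left k) (polM_add_right k) (polM_nondeg k)
    U.toAddSubgroup (Cfsg.quadFormMinus k (ZMod 2) 1 1) (minus_hq k) hU
    (by rw [natCard_submodule, card_minus, h2, ← pow_mul, mul_comm])
  rw [gaussSum_minus] at h3
  have h4 : (0 : ℤ) ≤ (Nat.card U.toAddSubgroup : ℤ) := Int.natCast_nonneg _
  have h5 : (0 : ℤ) < 2 ^ (k + 1) := by positivity
  omega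

/-- a totally singular subspace of dimension `k` for the minus form -/
def minusLag (k : ℕ) : (Fin k → ZMod 2) →ₗ[ZMod 2] ((Fin k ⊕ Fin k) ⊕ Fin 2 → ZMod 2) where
  toFun x := Sum.elim (Sum.elim x 0) 0
  map_add' x y := by ext ((i | i) | i) <;> simp
  map_smul' c x := by ext ((i | i) | i) <;> simp

theorem minusLag_injective (k : ℕ) : Function.Injective (minusLag k) := by
  intro x y h
  funext i
  exact congrFun h (Sum.inl (Sum.inl i))

theorem minusLag_singular (k : ℕ) (x : Fin k → ZMod 2) :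
    Cfsg.quadFormMinus k (ZMod 2) 1 1 (minusLag k x) = 0 := by
  unfold Cfsg.quadFormMinus minusLag
  simp

theorem finrank_range_minusLag (k : ℕ) : Module.finrank (ZMod 2) (LinearMap.range (minusLag k)) = k := by
  rw [LinearMap.finrank_range_of_inj (minusLag_injective k)]
  simp

end Cfsg.Agent.Lib.Helper15
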