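import Mathlib
import Cfsg.Agent.Lib.Helper15.F2PlusMinus

set_option autoImplicit false

namespace Cfsg.Agent.Lib.Helper15

abbrev VP (m : ℕ) := Fin m ⊕ Fin m → ZMod 2
abbrev VM (k : ℕ) := (Fin k ⊕ Fin k) ⊕ Fin 2 → ZMod 2

/-- `q` polarizes to the standard alternating form -/
def IsQ (m : ℕ) (q : VP m → ZMod 2) : Prop := ∀ u v, q (u + v) = q u + q v + pol m (ZMod 2) u v

theorem isQ_plus (m : ℕ) : IsQ m (Cfsg.quadFormPlus m (ZMod 2)) := plus_hq m

theorem IsQ.zero {m : ℕ} {q : VP m → ZMod 2} (hq : IsQ m q) : q 0 = 0 := by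
  have h2 := hq 0 0
  have h3 : pol m (ZMod 2) 0 0 = 0 := by simp [pol_eq]
  rw [h3] at h2
  simp only [add_zero] at h2
  generalize q 0 = a at h2; revert a; decide

theorem IsQ.translate {m : ℕ} {q : VP m → ZMod 2} (hq : IsQ m q) (w : VP m) :
    IsQ m (fun v => q v + pol m (ZMod 2) v w) := by
  intro u v
  show q (u + v) + pol m (ZMod 2) (u + v) w = (q u + pol m (ZMod 2) u w) + (q v + pol m (ZMod 2) v w)
      + pol m (ZMod 2) u v
  rw [hq, pol_add_left]
  ring

theorem riesz (m : ℕ) (l : VP m → ZMod 2) (hl : ∀ u v, l (u + v) = l u + l v) :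
    ∃ w : VP m, ∀ v, l v = pol m (ZMod 2) v w := by
  classical
  let L : VP m →+ ZMod 2 := AddMonoidHom.mk' l hl
  let L' : VP m →ₗ[ZMod 2] ZMod 2 := L.toZModLinearMap 2
  have hL : ∀ v, L' v = l v := fun v => rfl
  refine ⟨Sum.elim (fun i => l (Pi.single (.inr i) 1)) (fun i => l (Pi.single (.inl i) 1)), ?_⟩
  intro v
  rw [← hL, LinearMap.pi_apply_eq_sum_univ L' v, Fintype.sum_sum_type, pol_eq, Finset.sum_add_distrib]
  congr 1
  · apply Finset.sum_congr rfl
    intro i _
    simp only [smul_eq_mul, Sum.elim_inr, hL]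
    congr 2
    funext j
    simp [Pi.single_apply, eq_comm]
  · apply Finset.sum_congr rfl
    intro i _
    simp only [smul_eq_mul, Sum.elim_inl, hL]
    rw [mul_comm]
    congr 2
    funext j
    simp [Pi.single_apply, eq_comm]

theorem IsQ.exists_eq_translate {m : ℕ} {q q' : VP m → ZMod 2} (hq : IsQ m q) (hq' : IsQ m q') :
    ∃ w : VP m, ∀ v, q' v = q v + pol m (ZMod 2) v w := by
  obtain ⟨w, hw⟩ := riesz m (fun v => q' v - q v) (by
    intro u v
    show q' (u + v) - q (u + v) = (q' u - q u) + (q' v - q v)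
    rw [hq, hq']; ring)
  refine ⟨w, fun v => ?_⟩
  rw [← hw v]; ring

theorem IsQ.transvection {m : ℕ} {q : VP m → ZMod 2} (hq : IsQ m q) (w : VP m) (hw : q w = 0) :
    ∃ g : VP m ≃ₗ[ZMod 2] VP m, ∀ v, q v + pol m (ZMod 2) v w = q (g v) := by
  have hww : pol m (ZMod 2) w w = 0 := by
    rw [pol_self]
    have : (2 : ZMod 2) = 0 := by decide
    rw [this, zero_mul]
  let g₀ : VP m →ₗ[ZMod 2] VP m :=
    { toFun := fun v => v + pol m (ZMod 2) v w • w
      map_add' := by
        intro x y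
        rw [pol_add_left, add_smul]
        abel
      map_smul' := by
        intro c x
        rw [pol_smul_left, RingHom.id_apply, smul_add, mul_smul] }
  have hinv : Function.Involutive g₀ := by
    intro v
    show (v + pol m (ZMod 2) v w • w) + pol m (ZMod 2) (v + pol m (ZMod 2) v w • w) w • w = v
    rw [pol_add_left, pol_smul_left, hww, mul_zero, add_zero, add_assoc, ← add_smul]
    have : ∀ a : ZMod 2, a + a = 0 := by decide
    rw [this, zero_smul, add_zero]
  refine ⟨LinearEquiv.ofInvolutive g₀ hinv, ?_⟩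
  intro v
  show q v + pol m (ZMod 2) v w = q (v + pol m (ZMod 2) v w • w)
  rw [hq, pol_smul_right]
  have hc : ∀ c : ZMod 2, q (c • w) = 0 := by
    intro c
    have : c = 0 ∨ c = 1 := by revert c; decide
    rcases this with rfl | rfl
    · rw [zero_smul, hq.zero]
    · rw [one_smul, hw]
  rw [hc, add_zero]
  have : ∀ a : ZMod 2, a * a = a := by decide
  rw [this]

theorem IsQ.gaussSum_ne_zero {m : ℕ} {q : VP m → ZMod 2} (hq : IsQ m q) : gaussSum q ≠ 0 :=
  Cfsg.Agent.Lib.Helper15.gaussSum_ne_zero (pol m (ZMod 2)) q hq pol_add_left pol_nondeg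

theorem IsQ.gaussSum_translate {m : ℕ} {q : VP m → ZMod 2} (hq : IsQ m q) (w : VP m) :
    gaussSum (fun v => q v + pol m (ZMod 2) v w) = chi2 (q w) * gaussSum q :=
  Cfsg.Agent.Lib.Helper15.gaussSum_translate (pol m (ZMod 2)) q hq w

/-- two forms with the same polarization and the same Gauss sum are equivalent -/
theorem IsQ.equiv_of_gaussSum_eq {m : ℕ} {q q' : VP m → ZMod 2} (hq : IsQ m q) (hq' : IsQ m q')
    (h : gaussSum q' = gaussSum q) : ∃ g : VP m ≃ₗ[ZMod 2] VP m, ∀ v, q' v = q (g v) := by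
  obtain ⟨w, hw⟩ := hq.exists_eq_translate hq'
  have h1 : q' = fun v => q v + pol m (ZMod 2) v w := funext hw
  have h2 := hq.gaussSum_translate w
  rw [← h1, h] at h2
  have hw0 : q w = 0 := by
    by_contra hne
    rw [zmod2_eq_one_of_ne_zero hne, chi2_one] at h2
    have := hq.gaussSum_ne_zero
    omega
  obtain ⟨g, hg⟩ := hq.transvection w hw0
  exact ⟨g, fun v => by rw [hw, hg]⟩

theorem IsQ.gaussSum_eq_or {m : ℕ} {q : VP m → ZMod 2} (hq : IsQ m q) :
    gaussSum q = 2 ^ m ∨ gaussSum q = - 2 ^ m := by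
  have h := gaussSum_sq (pol m (ZMod 2)) q hq pol_add_left pol_nondeg
  rw [card_plus] at h
  have h2 : gaussSum q ^ 2 = (2 ^ m) ^ 2 := by
    rw [h]; push_cast; ring
  exact sq_eq_sq_iff_eq_or_eq_neg.mp h2

/-- coordinates identification of the plus space of rank `k+1` and the minus space of rank `k` -/
def toMinusLin (k : ℕ) : VP (k + 1) →ₗ[ZMod 2] VM k where
  toFun v := Sum.elim (Sum.elim (fun i => v (.inl i.castSucc)) (fun i => v (.inr i.castSucc)))
    ![v (.inl (Fin.last k)), v (.inr (Fin.last k))]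
  map_add' x y := by
    ext ((i | i) | i)
    · simp
    · simp
    · fin_cases i <;> simp
  map_smul' c x := by
    ext ((i | i) | i)
    · simp
    · simp
    · fin_cases i <;> simp

theorem toMinusLin_injective (k : ℕ) : Function.Injective (toMinusLin k) := by
  intro x y h
  funext j
  rcases j with j | j
  · induction j using Fin.lastCases with
    | last => exact congrFun h (.inr 0)
    | cast i => exact congrFun h (.inl (.inl i))
  · induction j using Fin.lastCases with
    | last => exact congrFun h (.inr 1)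
    | cast i => exact congrFun h (.inl (.inr i))

noncomputable def toMinus (k : ℕ) : VP (k + 1) ≃ₗ[ZMod 2] VM k :=
  LinearEquiv.ofInjectiveOfFinrankEq (toMinusLin k) (toMinusLin_injective k) (by simp; ring)

theorem toMinus_apply (k : ℕ) (v : VP (k + 1)) : toMinus k v = toMinusLin k v := rfl

theorem minus_toMinus (k : ℕ) (v : VP (k + 1)) :
    Cfsg.quadFormMinus k (ZMod 2) 1 1 (toMinus k v)
      = Cfsg.quadFormPlus (k + 1) (ZMod 2) v + (v (.inl (Fin.last k)) + v (.inr (Fin.last k))) := by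
  rw [toMinus_apply]
  unfold Cfsg.quadFormMinus Cfsg.quadFormPlus toMinusLin
  rw [Fin.sum_univ_castSucc]
  simp only [LinearMap.coe_mk, AddHom.coe_mk, Sum.elim_inl, Sum.elim_inr, Matrix.cons_val_zero,
    Matrix.cons_val_one]
  have : ∀ a : ZMod 2, a ^ 2 = a := by decide
  rw [this, this]
  ring

theorem isQ_minus (k : ℕ) : IsQ (k + 1) (fun v => Cfsg.quadFormMinus k (ZMod 2) 1 1 (toMinus k v)) := by
  intro u v
  show Cfsg.quadFormMinus k (ZMod 2) 1 1 (toMinus k (u + v)) = Cfsg.quadFormMinus k (ZMod 2) 1 1 (toMinus k u)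
    + Cfsg.quadFormMinus k (ZMod 2) 1 1 (toMinus k v) + pol (k + 1) (ZMod 2) u v
  rw [minus_toMinus, minus_toMinus, minus_toMinus, plus_hq]
  simp only [Pi.add_apply]
  ring

theorem gaussSum_comp_equiv' {V W : Type*} [Fintype V] [Fintype W] (q : W → ZMod 2) (g : V ≃ W) :
    gaussSum (fun v => q (g v)) = gaussSum q :=
  Equiv.sum_comp g (fun v => chi2 (q v))

/-- classification: Gauss sum positive iff plus type -/
theorem IsQ.plus_iff {m : ℕ} {q : VP m → ZMod 2} (hq : IsQ m q) :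
    (∃ g : VP m ≃ₗ[ZMod 2] VP m, ∀ v, q v = Cfsg.quadFormPlus m (ZMod 2) (g v)) ↔ gaussSum q = 2 ^ m := by
  constructor
  · rintro ⟨g, hg⟩
    rw [← gaussSum_plus m, ← gaussSum_comp_equiv' (Cfsg.quadFormPlus m (ZMod 2)) g.toEquiv]
    congr 1
    funext v
    exact hg v
  · intro h
    exact (isQ_plus m).equiv_of_gaussSum_eq hq (by rw [h, gaussSum_plus])

theorem IsQ.minus_iff {k : ℕ} {q : VP (k + 1) → ZMod 2} (hq : IsQ (k + 1) q) :
    (∃ g : VP (k + 1) ≃ₗ[ZMod 2] VM k, ∀ v, q v = Cfsg.quadFormMinus k (ZMod 2) 1 1 (g v))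
      ↔ gaussSum q = - 2 ^ (k + 1) := by
  constructor
  · rintro ⟨g, hg⟩
    rw [← gaussSum_minus k, ← gaussSum_comp_equiv' (Cfsg.quadFormMinus k (ZMod 2) 1 1) g.toEquiv]
    congr 1
    funext v
    exact hg v
  · intro h
    have h0 : gaussSum (fun v => Cfsg.quadFormMinus k (ZMod 2) 1 1 (toMinus k v)) = - 2 ^ (k + 1) := by
      rw [← gaussSum_minus k]
      exact gaussSum_comp_equiv' (Cfsg.quadFormMinus k (ZMod 2) 1 1) (toMinus k).toEquiv
    obtain ⟨g, hg⟩ := (isQ_minus k).equiv_of_gaussSum_eq hq (by rw [h, h0])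
    exact ⟨g.trans (toMinus k), hg⟩

end Cfsg.Agent.Lib.Helper15
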