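import Mathlib

set_option autoImplicit false
set_option maxRecDepth 100000

namespace Cfsg.Agent.Lib.Helper15.PSL13

open Equiv

abbrev Pn := Perm (Fin 14)

def a : Pn := ⟨![1,2,3,4,5,6,7,8,9,10,11,12,0,13], ![12,0,1,2,3,4,5,6,7,8,9,10,11,13], by decide +kernel, by decide +kernel⟩
def r : Pn := ⟨![0,2,4,6,8,10,12,1,3,5,7,9,11,13], ![0,7,1,8,2,9,3,10,4,11,5,12,6,13], by decide +kernel, by decide +kernel⟩
def b : Pn := ⟨![0,4,8,12,3,7,11,2,6,10,1,5,9,13], ![0,10,7,4,1,11,8,5,2,12,9,6,3,13], by decide +kernel, by decide +kernel⟩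
def t : Pn := ⟨![13,12,6,4,3,5,2,11,8,10,9,7,1,0], ![13,12,6,4,3,5,2,11,8,10,9,7,1,0], by decide +kernel, by decide +kernel⟩

def Γ₀ : Subgroup Pn := Subgroup.closure {a, b, t}

theorem comm_a (Z : Pn) (h : Z * a = a * Z) : ∃ j : Fin 13, Z = a ^ (j:ℕ) := by
  have h7 : Z (13 : Fin 14) = (13 : Fin 14) := by
    have h1 : a (Z (13 : Fin 14)) = Z (13 : Fin 14) := by
      have h2 := congrArg (fun f : Pn => f (13 : Fin 14)) h
      simp only [Perm.mul_apply] at h2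
      rw [← h2]; rfl
    exact (by decide +kernel : ∀ i : Fin 14, a i = i → i = (13 : Fin 14)) _ h1
  have hpow : ∀ n : ℕ, ∀ i, Z ((a^n) i) = (a^n) (Z i) := by
    intro n i
    have h1 : Z * a^n = a^n * Z := (Commute.pow_right (show Commute Z a from h) n)
    exact congrArg (fun f : Pn => f i) h1
  have h0 : Z 0 ≠ (13 : Fin 14) := by
    intro h0
    have h1 := Z.injective (h0.trans h7.symm)
    exact absurd h1 (by decide)
  obtain ⟨j, hj⟩ : ∃ j : Fin 13, Z 0 = (a^(j:ℕ)) 0 :=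
    (by decide +kernel : ∀ m : Fin 14, m ≠ (13 : Fin 14) → ∃ j : Fin 13, m = (a^(j:ℕ)) 0) _ h0
  refine ⟨j, Equiv.ext fun i => ?_⟩
  rcases (by decide +kernel : ∀ i : Fin 14, i = (13 : Fin 14) ∨ ∃ k : Fin 13, i = (a^(k:ℕ)) 0) i with rfl | ⟨k, rfl⟩
  · rw [h7]; exact ((by decide +kernel : ∀ j : Fin 13, (a^(j:ℕ)) (13 : Fin 14) = (13 : Fin 14)) j).symm
  · rw [hpow, hj, ← Perm.mul_apply, ← Perm.mul_apply, ← pow_add, ← pow_add, add_comm]

theorem norm_a (Y : Pn) (k : Fin 13) (h : Y * a * Y⁻¹ = a^(k:ℕ)) :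
    ∃ (e : Fin 12) (j : Fin 13), Y = r^(e:ℕ) * a^(j:ℕ) := by
  have hk : k ≠ 0 := by
    rintro rfl
    have h1 : a = 1 := by
      have h2 : Y * a * Y⁻¹ = 1 := by simpa using h
      have h3 : Y * a = Y := by simpa using mul_inv_eq_one.mp h2
      simpa using h3
    exact absurd h1 (by decide +kernel)
  obtain ⟨e, he⟩ := (by decide +kernel : ∀ k : Fin 13, k ≠ 0 →
    ∃ e : Fin 12, r^(e:ℕ) * a * (r^(e:ℕ))⁻¹ = a^(k:ℕ)) k hk
  obtain ⟨j, hj⟩ := comm_a ((r^(e:ℕ))⁻¹ * Y) (by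
    have h1 : Y * a = a^(k:ℕ) * Y := by rw [← h]; group
    have h2 : r^(e:ℕ) * a = a^(k:ℕ) * r^(e:ℕ) := by rw [← he]; group
    have h3 : (r^(e:ℕ))⁻¹ * a^(k:ℕ) = a * (r^(e:ℕ))⁻¹ := by
      rw [inv_mul_eq_iff_eq_mul, ← mul_assoc, h2]; group
    rw [mul_assoc, h1, ← mul_assoc, h3, mul_assoc])
  exact ⟨e, j, by rw [← hj]; group⟩

theorem sign_a : Perm.sign a = 1 := by decide +kernel
theorem sign_r : Perm.sign r = -1 := by decide +kernel

theorem even_e : ∀ e : Fin 12, (-1 : ℤˣ)^(e:ℕ) = 1 → ∃ i : Fin 6, r^(e:ℕ) = b^(i:ℕ) := by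
  decide +kernel

/-- elements of the normaliser of `a` that are even -/
theorem norm_a_even (Y : Pn) (k : Fin 13) (h : Y * a * Y⁻¹ = a^(k:ℕ)) (hs : Perm.sign Y = 1) :
    ∃ (i : Fin 6) (j : Fin 13), Y = b^(i:ℕ) * a^(j:ℕ) := by
  obtain ⟨e, j, rfl⟩ := norm_a Y k h
  rw [map_mul, map_pow, map_pow, sign_a, sign_r, one_pow, mul_one] at hs
  obtain ⟨i, hi⟩ := even_e e hs
  exact ⟨i, j, by rw [hi]⟩

def addF (k y : Fin 14) : Fin 14 := if y = (13 : Fin 14) then (13 : Fin 14) else Fin.ofNat 14 ((y.val + k.val) % 13)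
def subF (k y : Fin 14) : Fin 14 := if y = (13 : Fin 14) then (13 : Fin 14) else Fin.ofNat 14 ((y.val + 13 - k.val) % 13)
def mulF (e : ℕ) (y : Fin 14) : Fin 14 := if y = (13 : Fin 14) then (13 : Fin 14) else Fin.ofNat 14 ((y.val * 4 ^ e) % 13)

theorem a_pow : ∀ k y : Fin 14, k ≠ (13 : Fin 14) → (a^(k:ℕ)) y = addF k y := by decide +kernel
theorem a_pow_inv : ∀ k y : Fin 14, k ≠ (13 : Fin 14) → (a^(k:ℕ))⁻¹ y = subF k y := by decide +kernel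
theorem b_pow : ∀ (e : Fin 6) (y : Fin 14), (b^(e:ℕ)) y = mulF e y := by decide +kernel

def dl : Fin 14 → ℕ := ![0,0,0,2,1,4,2,5,1,4,5,3,3,0]
def sq : Fin 14 → Bool := ![true,true,false,true,true,false,false,false,false,true,true,false,true,true]

theorem dl_spec : ∀ x : Fin 14, x ≠ 0 → x ≠ (13 : Fin 14) → x = (b^(dl x)) (if sq x then 1 else 2) := by
  decide +kernel

def tab (k : Fin 6) (u v : Fin 14) : Fin 14 → Fin 14 := fun x =>
  if x = (13 : Fin 14) then 0 else if x = 0 then (13 : Fin 14) else mulF ((k * dl x) % 6) (if sq x then u else v)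

def Aff (f : Fin 14 → Fin 14) : Prop :=
  ((((f 1).val + 13 - (f 0).val) % 13) ^ 6) % 13 = 1 ∧
  ∀ x : Fin 14, x ≠ (13 : Fin 14) → (f (addF 1 x)).val = ((f x).val + ((f 1).val + 13 - (f 0).val) % 13) % 13

instance (f : Fin 14 → Fin 14) : Decidable (Aff f) := by unfold Aff; infer_instance

theorem aff_F : ∀ (i : Fin 6) (j : Fin 13), Aff (b^(i:ℕ) * a^(j:ℕ) : Pn) := by decide +kernel

def CR (T : Fin 14 → Fin 14) : Prop :=
  ∀ k : Fin 14, k ≠ 0 → k ≠ (13 : Fin 14) → Aff (fun x => T (subF (T k) (T (addF k (T x)))))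

instance (T : Fin 14 → Fin 14) : Decidable (CR T) := by unfold CR; infer_instance

theorem tab_crit : ∀ (k : Fin 6) (u v : Fin 14), CR (tab k u v) →
    ∃ i : Fin 6, tab k u v = (t * b^(i:ℕ) : Pn) := by
  decide +kernel


theorem b_pow_m : b ^ 6 = 1 := by decide +kernel

theorem core (Γ : Subgroup Pn) (ha : a ∈ Γ) (hb : b ∈ Γ)
    (R2 : ∀ σ ∈ Γ, σ (13 : Fin 14) = (13 : Fin 14) → ∃ (i : Fin 6) (j : Fin 13), σ = b^(i:ℕ) * a^(j:ℕ))
    (htr : ∃ h ∈ Γ, h 0 = (13 : Fin 14)) : Γ = Γ₀ := by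
  obtain ⟨h, hh, h0⟩ := htr
  have hm : h (13 : Fin 14) ≠ (13 : Fin 14) := by
    intro h1
    exact absurd (h.injective (h1.trans h0.symm)) (by decide)
  have hsub : ∀ k : Fin 14, k ≠ (13 : Fin 14) → subF k k = 0 := by decide +kernel
  obtain ⟨s, hs, s0, s7⟩ : ∃ s ∈ Γ, s 0 = (13 : Fin 14) ∧ s (13 : Fin 14) = 0 := by
    refine ⟨(a^((h (13 : Fin 14) : Fin 14):ℕ))⁻¹ * h, Γ.mul_mem (Γ.inv_mem (Γ.pow_mem ha _)) hh, ?_, ?_⟩
    · rw [Perm.mul_apply, h0, a_pow_inv _ _ hm]; rfl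
    · rw [Perm.mul_apply, a_pow_inv _ _ hm]
      exact hsub _ hm
  have si7 : s⁻¹ (13 : Fin 14) = 0 := by rw [Perm.inv_eq_iff_eq, s0]
  have si0 : s⁻¹ 0 = (13 : Fin 14) := by rw [Perm.inv_eq_iff_eq, s7]
  obtain ⟨k, hk⟩ : ∃ k : Fin 6, s * b * s⁻¹ = b^(k:ℕ) := by
    have hw : s * b * s⁻¹ ∈ Γ := Γ.mul_mem (Γ.mul_mem hs hb) (Γ.inv_mem hs)
    have hw7 : (s * b * s⁻¹) (13 : Fin 14) = (13 : Fin 14) := by
      rw [Perm.mul_apply, Perm.mul_apply, si7, (by decide : b 0 = 0), s0]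
    have hw0 : (s * b * s⁻¹) 0 = 0 := by
      rw [Perm.mul_apply, Perm.mul_apply, si0, (by decide : b (13 : Fin 14) = (13 : Fin 14)), s7]
    obtain ⟨i, j, hij⟩ := R2 _ hw hw7
    rw [hij] at hw0
    have hj : j = 0 := (by decide +kernel : ∀ (i : Fin 6) (j : Fin 13),
      (b^(i:ℕ) * a^(j:ℕ)) 0 = 0 → j = 0) i j hw0
    exact ⟨i, by rw [hij, hj]; simp⟩
  have hrel : ∀ (d : ℕ) (y : Fin 14), s ((b^d) y) = mulF (((k:ℕ) * d) % 6) (s y) := by
    intro d y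
    have h1 : s * b^d = (b^(k:ℕ))^d * s := by
      rw [← hk, conj_pow]; group
    have h2 : (b^(k:ℕ))^d = b^(((k:ℕ) * d) % 6) := by
      rw [← pow_mul]; exact pow_eq_pow_mod _ b_pow_m
    have h3 := congrArg (fun f : Pn => f y) h1
    simp only [Perm.mul_apply] at h3
    rw [h3, h2]
    exact b_pow ⟨((k:ℕ) * d) % 6, Nat.mod_lt _ (by norm_num)⟩ (s y)
  have hT : (s : Fin 14 → Fin 14) = tab k (s 1) (s 2) := by
    funext x
    unfold tab
    by_cases hx7 : x = (13 : Fin 14)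
    · rw [if_pos hx7, hx7, s7]
    · by_cases hx0 : x = 0
      · rw [if_neg hx7, if_pos hx0, hx0, s0]
      · rw [if_neg hx7, if_neg hx0]
        conv_lhs => rw [dl_spec x hx0 hx7]
        rw [hrel]
        congr 1
        split_ifs <;> rfl
  have hcr : CR (tab k (s 1) (s 2)) := by
    rw [← hT]
    intro k' hk0 hk7
    have hsk : s k' ≠ (13 : Fin 14) := fun h => hk0 (s.injective (h.trans s0.symm))
    have hw : s * (a^((s k' : Fin 14):ℕ))⁻¹ * s * a^(k':ℕ) * s ∈ Γ :=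
      Γ.mul_mem (Γ.mul_mem (Γ.mul_mem (Γ.mul_mem hs (Γ.inv_mem (Γ.pow_mem ha _))) hs)
        (Γ.pow_mem ha _)) hs
    have hfun : ∀ x, (s * (a^((s k' : Fin 14):ℕ))⁻¹ * s * a^(k':ℕ) * s) x
        = s (subF (s k') (s (addF k' (s x)))) := by
      intro x
      simp only [Perm.mul_apply]
      rw [a_pow _ _ hk7, a_pow_inv _ _ hsk]
    have hw7 : (s * (a^((s k' : Fin 14):ℕ))⁻¹ * s * a^(k':ℕ) * s) (13 : Fin 14) = (13 : Fin 14) := by
      rw [hfun, s7, (by decide +kernel : ∀ k : Fin 14, k ≠ (13 : Fin 14) → addF k 0 = k) k' hk7,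
        hsub _ hsk, s0]
    obtain ⟨i, j, hij⟩ := R2 _ hw hw7
    have h5 := aff_F i j
    rw [← hij] at h5
    have hfe : (⇑(s * (a^((s k' : Fin 14):ℕ))⁻¹ * s * a^(k':ℕ) * s) : Fin 14 → Fin 14)
        = fun x => s (subF (s k') (s (addF k' (s x)))) := funext hfun
    rw [hfe] at h5
    exact h5
  have ht : t ∈ Γ := by
    obtain ⟨i, hi⟩ := tab_crit _ _ _ hcr
    rw [← hT] at hi
    have h1 : s = t * b^(i:ℕ) := Equiv.ext (congrFun hi)
    have h2 : t = s * (b^(i:ℕ))⁻¹ := by rw [h1]; group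
    rw [h2]
    exact Γ.mul_mem hs (Γ.inv_mem (Γ.pow_mem hb _))
  have ha0 : a ∈ Γ₀ := Subgroup.subset_closure (by simp)
  have hb0 : b ∈ Γ₀ := Subgroup.subset_closure (by simp)
  have ht0 : t ∈ Γ₀ := Subgroup.subset_closure (by simp)
  apply le_antisymm
  · intro σ hσ
    by_cases hm : σ (13 : Fin 14) = (13 : Fin 14)
    · obtain ⟨i, j, hij⟩ := R2 σ hσ hm
      rw [hij]
      exact Γ₀.mul_mem (Γ₀.pow_mem hb0 _) (Γ₀.pow_mem ha0 _)
    · have hw : t * (a^((σ (13 : Fin 14) : Fin 14):ℕ))⁻¹ * σ ∈ Γ :=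
        Γ.mul_mem (Γ.mul_mem ht (Γ.inv_mem (Γ.pow_mem ha _))) hσ
      have hw7 : (t * (a^((σ (13 : Fin 14) : Fin 14):ℕ))⁻¹ * σ) (13 : Fin 14) = (13 : Fin 14) := by
        simp only [Perm.mul_apply]
        rw [a_pow_inv _ _ hm, hsub _ hm]
        rfl
      obtain ⟨i, j, hij⟩ := R2 _ hw hw7
      have h2 : σ = a^((σ (13 : Fin 14) : Fin 14):ℕ) * t⁻¹ * (b^(i:ℕ) * a^(j:ℕ)) := by
        rw [← hij]; group
      rw [h2]
      exact Γ₀.mul_mem (Γ₀.mul_mem (Γ₀.pow_mem ha0 _) (Γ₀.inv_mem ht0))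
        (Γ₀.mul_mem (Γ₀.pow_mem hb0 _) (Γ₀.pow_mem ha0 _))
  · rw [Γ₀, Subgroup.closure_le]
    intro x hx
    simp only [Set.mem_insert_iff, Set.mem_singleton_iff] at hx
    rcases hx with rfl | rfl | rfl
    · exact ha
    · exact hb
    · exact ht

end Cfsg.Agent.Lib.Helper15.PSL13
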