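import Mathlib
import Cfsg.Agent.Lib.Helper15.S168b
import Cfsg.Agent.Lib.Helper15.PSL13a

set_option autoImplicit false
set_option maxRecDepth 100000

namespace Cfsg.Agent.Lib.Helper15.PSL13

open Equiv
open Cfsg.Agent.Lib.Helper15.S168 (sylow_card')

section abs
variable {G : Type*} [Group G] [Finite G] [IsSimpleGroup G]

theorem card_sylowp (h : Nat.card G = 1092) : Nat.card (Sylow 13 G) = 14 := by
  have : Fact (Nat.Prime 13) := ⟨by norm_num⟩
  let P : Sylow 13 G := default
  have hPc : Nat.card (P : Subgroup G) = 13 := by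
    rw [P.card_eq_multiplicity, sylow_card' 13 1 84 (by rw [h]; norm_num) (by norm_num)]; norm_num
  have h1 : Nat.card (Sylow 13 G) ≡ 1 [MOD 13] := card_sylow_modEq_one 13 G
  have h2 : Nat.card (Sylow 13 G) ∣ (P : Subgroup G).index := P.card_dvd_index
  have h3 : (P : Subgroup G).index = 84 := by
    have := (P : Subgroup G).card_mul_index
    rw [hPc, h] at this; omega
  rw [h3] at h2
  have h4 : Nat.card (Sylow 13 G) ≤ 84 := Nat.le_of_dvd (by norm_num) h2
  have h5 : Nat.card (Sylow 13 G) % 13 = 1 := h1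
  have h6 : Nat.card (Sylow 13 G) = 1 ∨ Nat.card (Sylow 13 G) = 14 :=
    (by decide +kernel : ∀ n ≤ 84, n % 13 = 1 → n ∣ 84 → n = 1 ∨ n = 14) _ h4 h5 h2
  rcases h6 with h6 | h6
  · exfalso
    have : Subsingleton (Sylow 13 G) := (Nat.card_eq_one_iff_unique.mp h6).1
    have hn : (P : Subgroup G).Normal := P.normal_of_subsingleton
    rcases hn.eq_bot_or_eq_top with hb | hb
    · rw [hb] at hPc; simp at hPc
    · rw [hb] at hPc; simp [h] at hPc
  · exact h6

theorem orderOf_a : orderOf a = 13 :=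
  have : Fact (Nat.Prime 13) := ⟨by norm_num⟩
  orderOf_eq_prime (by decide +kernel) (by decide +kernel)

theorem cycleType_of_order (σ : Pn) (h : orderOf σ = 13) : σ.cycleType = {13} := by
  have hc : σ.IsCycle := Equiv.Perm.isCycle_of_prime_order' (by rw [h]; norm_num) (by rw [h]; simp)
  rw [hc.cycleType, ← hc.orderOf, h]

theorem exists_hom (h : Nat.card G = 1092) : ∃ (φ : G →* Pn) (x : G), Function.Injective φ ∧
    (∀ i j : Fin 14, ∃ g, φ g i = j) ∧ orderOf x = 13 ∧ φ x = a := by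
  have : Fact (Nat.Prime 13) := ⟨by norm_num⟩
  have hn := card_sylowp h
  let ψ := MulAction.toPermHom G (Sylow 13 G)
  have hψ : Function.Injective ψ := by
    rw [← MonoidHom.ker_eq_bot_iff]
    rcases ψ.normal_ker.eq_bot_or_eq_top with hk | hk
    · exact hk
    · exfalso
      have hss : Subsingleton (Sylow 13 G) := ⟨fun P Q => by
        obtain ⟨g, hg⟩ := MulAction.exists_smul_eq G P Q
        have hg1 : ψ g = 1 := by
          have : g ∈ ψ.ker := by rw [hk]; trivial
          exact this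
        have : ψ g P = P := by rw [hg1]; rfl
        rw [← hg]; exact this.symm⟩
      have := Finite.card_le_one_iff_subsingleton.mpr hss
      omega
  let e : Sylow 13 G ≃ Fin 14 := Finite.equivFinOfCardEq hn
  let φ0 : G →* Pn := e.permCongrHom.toMonoidHom.comp ψ
  have hφ0 : Function.Injective φ0 := e.permCongrHom.injective.comp hψ
  obtain ⟨x, hx⟩ := exists_prime_orderOf_dvd_card' (G := G) 13 (by rw [h]; norm_num)
  have ho : orderOf (φ0 x) = 13 := by rw [orderOf_injective φ0 hφ0, hx]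
  have hconj : IsConj (φ0 x) a := by
    rw [Equiv.Perm.isConj_iff_cycleType_eq, cycleType_of_order _ ho, cycleType_of_order _ orderOf_a]
  obtain ⟨c, hc⟩ := isConj_iff.mp hconj
  refine ⟨(MulAut.conj c).toMonoidHom.comp φ0, x, (MulAut.conj c).injective.comp hφ0, ?_, hx, ?_⟩
  · intro i j
    obtain ⟨g, hg⟩ := MulAction.exists_smul_eq G (e.symm (c⁻¹ i)) (e.symm (c⁻¹ j))
    refine ⟨g, ?_⟩
    show (c * φ0 g * c⁻¹) i = j
    have h1 : φ0 g (c⁻¹ i) = e (g • e.symm (c⁻¹ i)) := rfl
    rw [Perm.mul_apply, Perm.mul_apply, h1, hg]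
    simp
  · exact hc

theorem sign_one (h : Nat.card G = 1092) (φ : G →* Pn) (g : G) : Perm.sign (φ g) = 1 := by
  let χ : G →* ℤˣ := Perm.sign.comp φ
  rcases χ.normal_ker.eq_bot_or_eq_top with hk | hk
  · exfalso
    have hinj : Function.Injective χ := (MonoidHom.ker_eq_bot_iff χ).mp hk
    have h1 := Nat.card_le_card_of_injective χ hinj
    rw [h] at h1
    have h2 : Nat.card ℤˣ = 2 := by simp
    omega
  · have : g ∈ χ.ker := by rw [hk]; trivial
    exact this

theorem exists_range_eq (h : Nat.card G = 1092) :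
    ∃ φ : G →* Pn, Function.Injective φ ∧ φ.range = Γ₀ := by
  have : Fact (Nat.Prime 13) := ⟨by norm_num⟩
  obtain ⟨φ, x, hφ, htr, hx, hxa⟩ := exists_hom h
  refine ⟨φ, hφ, ?_⟩
  have hc : Nat.card (Subgroup.zpowers x) = 13 := by rw [Nat.card_zpowers, hx]
  let P : Sylow 13 G := Sylow.ofCard (Subgroup.zpowers x) (by
    rw [hc, sylow_card' 13 1 84 (by rw [h]; norm_num) (by norm_num)]; norm_num)
  have hP : (P : Subgroup G) = Subgroup.zpowers x := Sylow.coe_ofCard _ _
  obtain ⟨Nn, hNn⟩ : ∃ Nn : Subgroup G, Nn = Subgroup.normalizer ((P : Subgroup G) : Set G) := ⟨_, rfl⟩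
  have hidx : Nn.index = 14 := by
    have := P.card_eq_index_normalizer
    rw [card_sylowp h] at this
    rw [hNn]
    exact this.symm
  have hN : Nat.card Nn = 78 := by
    have := Nn.card_mul_index
    rw [hidx, h] at this; omega
  have hform : ∀ y ∈ Nn, ∃ q : Fin 6 × Fin 13, φ y = b^(q.1:ℕ) * a^(q.2:ℕ) := by
    intro y hy
    rw [hNn] at hy
    have h1' : y * x * y⁻¹ ∈ (P : Subgroup G) :=
      (Subgroup.mem_normalizer_iff.mp hy x).mp (by rw [hP]; exact Subgroup.mem_zpowers x)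
    have h1 : y * x * y⁻¹ ∈ Subgroup.zpowers x := hP ▸ h1'
    rw [← mem_powers_iff_mem_zpowers, Submonoid.mem_powers_iff] at h1
    obtain ⟨k, hk⟩ := h1
    have hk' : x ^ (k % 13) = y * x * y⁻¹ := by rw [← hk, ← hx, pow_mod_orderOf]
    have hY : φ y * a * (φ y)⁻¹ = a ^ (((⟨k % 13, Nat.mod_lt _ (by norm_num)⟩ : Fin 13) : ℕ)) := by
      show φ y * a * (φ y)⁻¹ = a ^ (k % 13)
      rw [← hxa, ← map_inv, ← map_mul, ← map_mul, ← hk', map_pow]
    obtain ⟨i, j, hij⟩ := norm_a_even _ _ hY (sign_one h φ y)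
    exact ⟨(i, j), hij⟩
  choose! c hc' using hform
  let f : Nn → Fin 6 × Fin 13 := fun y => c y
  have hf : Function.Injective f := by
    intro y1 y2 h12
    have h1 : φ y1 = φ y2 := by
      rw [hc' y1 y1.2, hc' y2 y2.2]
      have : c y1 = c y2 := h12
      rw [this]
    exact Subtype.ext (hφ h1)
  have hbij : Function.Bijective f :=
    (Nat.bijective_iff_injective_and_card f).mpr ⟨hf, by rw [hN]; simp⟩
  obtain ⟨y, hy⟩ := hbij.2 (⟨1, by norm_num⟩, 0)
  have hyb : φ y = b := by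
    have h1 : c y = (⟨1, by norm_num⟩, 0) := hy
    rw [hc' y y.2, h1]; simp
  -- the point stabiliser
  let act : MulAction G (Fin 14) := MulAction.compHom (Fin 14) φ
  have hsm : ∀ (g : G) (i : Fin 14), g • i = φ g i := fun _ _ => rfl
  have htr' : MulAction.IsPretransitive G (Fin 14) := ⟨fun i j => htr i j⟩
  have hidx' : (MulAction.stabilizer G (13 : Fin 14)).index = 14 := by
    rw [MulAction.index_stabilizer_of_transitive]; simp
  have hS : Nat.card (MulAction.stabilizer G (13 : Fin 14)) = 78 := by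
    have := (MulAction.stabilizer G (13 : Fin 14)).card_mul_index
    rw [hidx', h] at this; omega
  have hle : Nn ≤ MulAction.stabilizer G (13 : Fin 14) := by
    intro z hz
    rw [MulAction.mem_stabilizer_iff, hsm, hc' z hz]
    exact (by decide +kernel : ∀ q : Fin 6 × Fin 13, (b ^ (q.1:ℕ) * a ^ (q.2:ℕ)) (13 : Fin 14) = (13 : Fin 14)) _
  have heq : Nn = MulAction.stabilizer G (13 : Fin 14) :=
    Subgroup.eq_of_le_of_card_ge hle (by rw [hN, hS])
  refine core φ.range ⟨x, hxa⟩ ⟨y, hyb⟩ ?_ ?_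
  · rintro σ ⟨g, rfl⟩ hg
    have hgN : g ∈ Nn := by
      rw [heq, MulAction.mem_stabilizer_iff, hsm]; exact hg
    exact ⟨(c g).1, (c g).2, hc' g hgN⟩
  · obtain ⟨g, hg⟩ := htr 0 (13 : Fin 14)
    exact ⟨φ g, ⟨g, rfl⟩, hg⟩

theorem exists_iso (h : Nat.card G = 1092) : Nonempty (G ≃* Γ₀) := by
  obtain ⟨φ, hφ, hr⟩ := exists_range_eq h
  exact ⟨(MonoidHom.ofInjective hφ).trans (MulEquiv.subgroupCongr hr)⟩

end abs

theorem iso_of_simple {G H : Type*} [Group G] [Finite G] [IsSimpleGroup G] [Group H] [Finite H]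
    [IsSimpleGroup H] (hG : Nat.card G = 1092) (hH : Nat.card H = 1092) : Nonempty (G ≃* H) := by
  obtain ⟨e1⟩ := exists_iso hG
  obtain ⟨e2⟩ := exists_iso hH
  exact ⟨e1.trans e2.symm⟩

theorem iso_psl {G : Type*} [Group G] [Finite G] [IsSimpleGroup G] (h : Nat.card G = 1092)
    {F : Type*} [Field F] [Fintype F] (hF : Fintype.card F = 13) (hc0 : Nat.gcd 2 (13 - 1) *
      ((13 - 1) * Nat.card (Matrix.ProjectiveSpecialLinearGroup (Fin 2) F)) =
      ∏ i : Fin 2, (13 ^ 2 - 13 ^ (i : ℕ))) :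
    Nonempty (G ≃* Matrix.ProjectiveSpecialLinearGroup (Fin 2) F) := by
  have hfin : Finite (Matrix.ProjectiveSpecialLinearGroup (Fin 2) F) := by
    unfold Matrix.ProjectiveSpecialLinearGroup; infer_instance
  have hs : IsSimpleGroup (Matrix.ProjectiveSpecialLinearGroup (Fin 2) F) :=
    Matrix.ProjectiveSpecialLinearGroup.rank_two_simple (by rw [Nat.card_eq_fintype_card, hF]; norm_num)
  have hc : Nat.card (Matrix.ProjectiveSpecialLinearGroup (Fin 2) F) = 1092 := by
    simp only [Fin.prod_univ_two] at hc0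
    norm_num at hc0
    omega
  exact iso_of_simple h hc

end Cfsg.Agent.Lib.Helper15.PSL13
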