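import Mathlib

set_option autoImplicit false

namespace Cfsg.Agent.Lib.Helper15

open Module LinearMap

variable {K V : Type*} [Field K] [AddCommGroup V] [Module K V] [FiniteDimensional K V]

theorem finrank_ker_comp_le (f g : V →ₗ[K] V) :
    finrank K (ker (f ∘ₗ g)) ≤ finrank K (ker f) + finrank K (ker g) := by
  let h : ker (f ∘ₗ g) →ₗ[K] V := g ∘ₗ (ker (f ∘ₗ g)).subtype
  have h1 := h.finrank_range_add_finrank_ker
  have h2 : finrank K (range h) ≤ finrank K (ker f) := by
    apply Submodule.finrank_mono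
    rintro _ ⟨x, rfl⟩
    have hx : (f ∘ₗ g) (x : V) = 0 := LinearMap.mem_ker.mp x.2
    exact LinearMap.mem_ker.mpr hx
  have h3 : finrank K (ker h) ≤ finrank K (ker g) := by
    let j : ker h →ₗ[K] ker g :=
      LinearMap.codRestrict (ker g) ((ker (f ∘ₗ g)).subtype ∘ₗ (ker h).subtype) (by
        intro x
        have hx : h (x : ker (f ∘ₗ g)) = 0 := LinearMap.mem_ker.mp x.2
        exact LinearMap.mem_ker.mpr hx)
    apply LinearMap.finrank_le_finrank_of_injective (f := j)
    intro x y hxy
    have := congrArg Subtype.val hxy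
    simp only [j, LinearMap.codRestrict_apply, LinearMap.comp_apply, Submodule.subtype_apply] at this
    exact Subtype.ext (Subtype.ext this)
  omega

theorem finrank_ker_pow_add_le (N : End K V) (h : finrank K (ker N) ≤ 1) (j k : ℕ) :
    finrank K (ker (N ^ (j + k))) ≤ finrank K (ker (N ^ j)) + k := by
  induction k with
  | zero => simp
  | succ k ih =>
    have h1 : N ^ (j + (k + 1)) = N ∘ₗ (N ^ (j + k)) := by
      rw [← add_assoc, pow_succ']; rfl
    rw [h1]
    have := finrank_ker_comp_le N (N ^ (j + k))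
    omega

theorem finrank_ker_pow_le (N : End K V) (h : finrank K (ker N) ≤ 1) (k : ℕ) :
    finrank K (ker (N ^ k)) ≤ k := by
  have h1 := finrank_ker_pow_add_le N h 0 k
  have h2 : finrank K (ker (N ^ 0)) = 0 := by
    rw [pow_zero]
    have : ker (1 : End K V) = ⊥ := LinearMap.ker_id
    rw [this]; simp
  rw [zero_add] at h1
  omega

theorem finrank_ker_pow_eq (N : End K V) (h : finrank K (ker N) ≤ 1)
    (hn : N ^ finrank K V = 0) (k : ℕ) (hk : k ≤ finrank K V) :
    finrank K (ker (N ^ k)) = k := by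
  apply le_antisymm (finrank_ker_pow_le N h k)
  have h1 := finrank_ker_pow_add_le N h k (finrank K V - k)
  rw [Nat.add_sub_cancel' hk, hn] at h1
  have h2 : finrank K (ker (0 : End K V)) = finrank K V := by
    rw [LinearMap.ker_zero]; exact finrank_top K V
  omega

theorem le_ker_pow_of_invariant (N : End K V) (hnil : IsNilpotent N) (W : Submodule K V)
    (hW : ∀ v ∈ W, N v ∈ W) : W ≤ ker (N ^ finrank K W) := by
  let NW : End K W := N.restrict hW
  have hpow : ∀ (k : ℕ) (w : W), (((NW ^ k) w : W) : V) = (N ^ k) (w : V) := by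
    intro k
    induction k with
    | zero => intro w; simp
    | succ k ih =>
      intro w
      rw [pow_succ', pow_succ', Module.End.mul_apply, Module.End.mul_apply, ← ih]
      rfl
  have hnilW : IsNilpotent NW := by
    obtain ⟨k, hk⟩ := hnil
    refine ⟨k, ?_⟩
    ext w
    rw [hpow, hk]; simp
  have h1 : NW ^ finrank K W = 0 := by
    have h2 := LinearMap.aeval_self_charpoly NW
    rw [hnilW.charpoly_eq_X_pow_finrank] at h2
    simpa using h2
  intro w hw
  rw [LinearMap.mem_ker]
  have := hpow (finrank K W) ⟨w, hw⟩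
  rw [h1] at this
  simpa using this.symm

theorem eq_ker_pow_of_invariant (N : End K V) (h : finrank K (ker N) ≤ 1)
    (hn : N ^ finrank K V = 0) (W : Submodule K V)
    (hW : ∀ v ∈ W, N v ∈ W) : W = ker (N ^ finrank K W) := by
  apply Submodule.eq_of_le_of_finrank_eq (le_ker_pow_of_invariant N ⟨_, hn⟩ W hW)
  rw [finrank_ker_pow_eq N h hn _ (Submodule.finrank_le W)]

section matrix

variable {ι : Type*} [Fintype ι] [DecidableEq ι]

theorem mulVecLin_pow (A : Matrix ι ι K) (k : ℕ) :
    Matrix.mulVecLin (A ^ k) = (Matrix.mulVecLin A : End K (ι → K)) ^ k :=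
  map_pow (Matrix.toLinAlgEquiv' : Matrix ι ι K ≃ₐ[K] _) A k

theorem finrank_ker_mulVecLin_le_one (A : Matrix ι ι K) (hreg : A.rank = Fintype.card ι - 1) :
    finrank K (ker (Matrix.mulVecLin A)) ≤ 1 := by
  have h1 := (Matrix.mulVecLin A).finrank_range_add_finrank_ker
  rw [Module.finrank_fintype_fun_eq_card] at h1
  have h2 : finrank K (range (Matrix.mulVecLin A)) = Fintype.card ι - 1 := hreg
  omega

theorem mulVecLin_pow_finrank_eq_zero (A : Matrix ι ι K) (hnil : A ^ Fintype.card ι = 0) :
    (Matrix.mulVecLin A : End K (ι → K)) ^ finrank K (ι → K) = 0 := by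
  rw [Module.finrank_fintype_fun_eq_card, ← mulVecLin_pow, hnil]
  simp

theorem matrix_eq_ker_pow_of_invariant (A : Matrix ι ι K) (hnil : A ^ Fintype.card ι = 0)
    (hreg : A.rank = Fintype.card ι - 1) (W : Submodule K (ι → K))
    (hW : ∀ v ∈ W, A.mulVec v ∈ W) :
    W = ker (Matrix.mulVecLin (A ^ finrank K W)) := by
  rw [mulVecLin_pow]
  exact eq_ker_pow_of_invariant (Matrix.mulVecLin A) (finrank_ker_mulVecLin_le_one A hreg)
    (mulVecLin_pow_finrank_eq_zero A hnil) W hW

end matrix

end Cfsg.Agent.Lib.Helper15
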