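import Mathlib
import Cfsg.Agent.Lib.Helper15.RegNilp

set_option autoImplicit false

namespace Cfsg.Agent.Lib.Helper15

open Module LinearMap Polynomial

variable {K ι : Type*} [Field K] [Fintype ι] [DecidableEq ι]

theorem matrix_finrank_ker_pow (A : Matrix ι ι K) (hnil : A ^ Fintype.card ι = 0)
    (hreg : A.rank = Fintype.card ι - 1) (k : ℕ) (hk : k ≤ Fintype.card ι) :
    finrank K (ker (Matrix.mulVecLin (A ^ k))) = k := by
  rw [mulVecLin_pow]
  exact finrank_ker_pow_eq (Matrix.mulVecLin A) (finrank_ker_mulVecLin_le_one A hreg)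
    (mulVecLin_pow_finrank_eq_zero A hnil) k (by rw [Module.finrank_fintype_fun_eq_card]; exact hk)

theorem exists_cyclic_vector (A : Matrix ι ι K) (hnil : A ^ Fintype.card ι = 0)
    (hreg : A.rank = Fintype.card ι - 1) (hn : 1 ≤ Fintype.card ι) :
    ∃ v : ι → K, (A ^ (Fintype.card ι - 1)).mulVec v ≠ 0 := by
  by_contra hcon
  push Not at hcon
  have h1 := matrix_finrank_ker_pow A hnil hreg (Fintype.card ι - 1) (Nat.sub_le _ _)
  have h2 : ker (Matrix.mulVecLin (A ^ (Fintype.card ι - 1))) = ⊤ := by
    rw [eq_top_iff]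
    intro v _
    exact hcon v
  rw [h2, finrank_top, Module.finrank_fintype_fun_eq_card] at h1
  omega

/-- evaluation of polynomials in `A` at a vector -/
noncomputable def polyEval (A : Matrix ι ι K) (v : ι → K) : K[X] →ₗ[K] (ι → K) where
  toFun p := (aeval A p).mulVec v
  map_add' p q := by simp [Matrix.add_mulVec]
  map_smul' c p := by simp [Matrix.smul_mulVec]

theorem polyEval_apply (A : Matrix ι ι K) (v : ι → K) (p : K[X]) :
    polyEval A v p = (aeval A p).mulVec v := rfl

theorem polyEval_surjective (A : Matrix ι ι K) (hnil : A ^ Fintype.card ι = 0)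
    (hreg : A.rank = Fintype.card ι - 1) (v : ι → K)
    (hv : (A ^ (Fintype.card ι - 1)).mulVec v ≠ 0) (w : ι → K) :
    ∃ p : K[X], (aeval A p).mulVec v = w := by
  have hinv : ∀ x ∈ range (polyEval A v), A.mulVec x ∈ range (polyEval A v) := by
    rintro _ ⟨p, rfl⟩
    refine ⟨X * p, ?_⟩
    simp [polyEval_apply, Matrix.mulVec_mulVec]
  have hW := matrix_eq_ker_pow_of_invariant A hnil hreg _ hinv
  have hvW : v ∈ range (polyEval A v) := ⟨1, by simp [polyEval_apply]⟩
  have hle : finrank K (range (polyEval A v)) ≤ Fintype.card ι := by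
    have := Submodule.finrank_le (range (polyEval A v))
    rwa [Module.finrank_fintype_fun_eq_card] at this
  have hd : finrank K (range (polyEval A v)) = Fintype.card ι := by
    by_contra hne
    apply hv
    rw [hW] at hvW
    have h0 : (A ^ finrank K (range (polyEval A v))).mulVec v = 0 := hvW
    have : Fintype.card ι - 1
        = (Fintype.card ι - 1 - finrank K (range (polyEval A v))) + finrank K (range (polyEval A v)) := by
      omega
    rw [this, pow_add, ← Matrix.mulVec_mulVec, h0, Matrix.mulVec_zero]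
  have htop : range (polyEval A v) = ⊤ := by
    apply Submodule.eq_top_of_finrank_eq
    rw [hd, Module.finrank_fintype_fun_eq_card]
  have : w ∈ range (polyEval A v) := by rw [htop]; trivial
  exact this

theorem commute_aeval {A X : Matrix ι ι K} (h : Commute X A) (p : K[X]) : Commute X (aeval A p) := by
  induction p using Polynomial.induction_on' with
  | add p q hp hq => rw [map_add]; exact hp.add_right hq
  | monomial n c =>
    rw [aeval_monomial]
    exact Commute.mul_right (Algebra.commutes c X).symm (h.pow_right n)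

theorem eq_of_commute_of_mulVec_eq (A : Matrix ι ι K) (hnil : A ^ Fintype.card ι = 0)
    (hreg : A.rank = Fintype.card ι - 1) (v : ι → K)
    (hv : (A ^ (Fintype.card ι - 1)).mulVec v ≠ 0) {X Y : Matrix ι ι K} (hX : Commute X A)
    (hY : Commute Y A) (h : X.mulVec v = Y.mulVec v) : X = Y := by
  have : ∀ w, X.mulVec w = Y.mulVec w := by
    intro w
    obtain ⟨p, rfl⟩ := polyEval_surjective A hnil hreg v hv w
    rw [Matrix.mulVec_mulVec, Matrix.mulVec_mulVec, (commute_aeval hX p).eq, (commute_aeval hY p).eq,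
      ← Matrix.mulVec_mulVec, ← Matrix.mulVec_mulVec, h]
  apply Matrix.toLin'.injective
  ext1 w
  apply LinearMap.ext
  intro c
  simp [this]

theorem isUnit_iff_of_commute (A : Matrix ι ι K) (hnil : A ^ Fintype.card ι = 0)
    (hreg : A.rank = Fintype.card ι - 1) (hn : 1 ≤ Fintype.card ι) (v : ι → K)
    (hv : (A ^ (Fintype.card ι - 1)).mulVec v ≠ 0) {X : Matrix ι ι K} (hX : Commute X A) :
    IsUnit X ↔ (A ^ (Fintype.card ι - 1)).mulVec (X.mulVec v) ≠ 0 := by
  have hXp : Commute X (A ^ (Fintype.card ι - 1)) := hX.pow_right _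
  constructor
  · intro hu h0
    apply hv
    rw [Matrix.mulVec_mulVec, ← hXp.eq, ← Matrix.mulVec_mulVec] at h0
    have hinj := Matrix.mulVec_injective_iff_isUnit.mpr hu
    apply hinj
    rw [h0, Matrix.mulVec_zero]
  · intro h0
    by_contra hu
    apply h0
    rw [← Matrix.mulVec_injective_iff_isUnit] at hu
    have hker : ker (Matrix.mulVecLin X) ≠ ⊥ := by
      intro hb
      apply hu
      exact LinearMap.ker_eq_bot.mp hb
    have hinv : ∀ x ∈ ker (Matrix.mulVecLin X), A.mulVec x ∈ ker (Matrix.mulVecLin X) := by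
      intro x hx
      have hx0 : X.mulVec x = 0 := hx
      show X.mulVec (A.mulVec x) = 0
      rw [Matrix.mulVec_mulVec, hX.eq, ← Matrix.mulVec_mulVec, hx0, Matrix.mulVec_zero]
    have hW := matrix_eq_ker_pow_of_invariant A hnil hreg _ hinv
    have hd : 1 ≤ finrank K (ker (Matrix.mulVecLin X)) := by
      rw [Nat.one_le_iff_ne_zero]
      intro h
      exact hker (Submodule.finrank_eq_zero.mp h)
    have hmem : (A ^ (Fintype.card ι - 1)).mulVec v ∈ ker (Matrix.mulVecLin X) := by
      rw [hW]
      show (A ^ _).mulVec _ = 0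
      rw [Matrix.mulVec_mulVec, ← pow_add]
      have : finrank K (ker (Matrix.mulVecLin X)) + (Fintype.card ι - 1)
          = (finrank K (ker (Matrix.mulVecLin X)) - 1) + Fintype.card ι := by omega
      rw [this, pow_add, hnil, mul_zero, Matrix.zero_mulVec]
    have hmem0 : X.mulVec ((A ^ (Fintype.card ι - 1)).mulVec v) = 0 := hmem
    rw [Matrix.mulVec_mulVec, ← hXp.eq, ← Matrix.mulVec_mulVec, hmem0]

end Cfsg.Agent.Lib.Helper15
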