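import Mathlib

/-! Table-certified regular subgroups of `GL(2,p)` (helper15). -/

set_option autoImplicit false

namespace Cfsg.Agent.Lib.Helper15.RegTab

open Matrix

variable {p : ℕ} [Fact p.Prime]

theorem mulVec_e1 (M : Matrix (Fin 2) (Fin 2) (ZMod p)) : M *ᵥ ![1, 0] = ![M 0 0, M 1 0] := by
  ext i; fin_cases i <;> simp [Matrix.mulVec, dotProduct, Fin.sum_univ_two]

theorem mulVec_e2 (M : Matrix (Fin 2) (Fin 2) (ZMod p)) : M *ᵥ ![0, 1] = ![M 0 1, M 1 1] := by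
  ext i; fin_cases i <;> simp [Matrix.mulVec, dotProduct, Fin.sum_univ_two]

theorem inv_mulVec (s : GL (Fin 2) (ZMod p)) (w : Fin 2 → ZMod p) :
    ((s⁻¹ : GL (Fin 2) (ZMod p)) : Matrix (Fin 2) (Fin 2) (ZMod p)) *ᵥ
      ((s : Matrix (Fin 2) (Fin 2) (ZMod p)) *ᵥ w) = w := by
  rw [Matrix.mulVec_mulVec, ← Units.val_mul, inv_mul_cancel]; simp

theorem mulVec_inv (s : GL (Fin 2) (ZMod p)) (w : Fin 2 → ZMod p) :
    (s : Matrix (Fin 2) (Fin 2) (ZMod p)) *ᵥ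
      (((s⁻¹ : GL (Fin 2) (ZMod p)) : Matrix (Fin 2) (Fin 2) (ZMod p)) *ᵥ w) = w := by
  rw [Matrix.mulVec_mulVec, ← Units.val_mul, mul_inv_cancel]; simp

theorem mulVec_ne_zero (s : GL (Fin 2) (ZMod p)) {w : Fin 2 → ZMod p} (hw : w ≠ 0) :
    (s : Matrix (Fin 2) (Fin 2) (ZMod p)) *ᵥ w ≠ 0 := by
  intro h
  apply hw
  have := inv_mulVec s w
  rw [h] at this
  simpa using this.symm

theorem main (S : Set (GL (Fin 2) (ZMod p))) (F : (Fin 2 → ZMod p) → (Fin 2 → ZMod p))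
    (R : (Fin 2 → ZMod p) → ℕ)
    (h1 : F ![1, 0] = ![0, 1])
    (hF : ∀ s ∈ S, ∀ w, F ((s : Matrix (Fin 2) (Fin 2) (ZMod p)) *ᵥ w)
      = (s : Matrix (Fin 2) (Fin 2) (ZMod p)) *ᵥ F w)
    (hR : ∀ w, w ≠ 0 → w ≠ ![1, 0] →
      ∃ s ∈ S, R ((s : Matrix (Fin 2) (Fin 2) (ZMod p)) *ᵥ w) < R w) :
    Nat.card (Subgroup.closure S) = p ^ 2 - 1 ∧
      ∀ v w : Fin 2 → ZMod p, v ≠ 0 → w ≠ 0 → ∃! h : Subgroup.closure S,
        Matrix.mulVec ((h : GL (Fin 2) (ZMod p)) : Matrix (Fin 2) (Fin 2) (ZMod p)) v = w := by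
  classical
  have he1 : (![1, 0] : Fin 2 → ZMod p) ≠ 0 := by
    intro h
    have := congrFun h 0
    simp at this
  -- step 1
  have hT : ∀ g ∈ Subgroup.closure S,
      F ((g : Matrix (Fin 2) (Fin 2) (ZMod p)) *ᵥ ![1, 0])
        = (g : Matrix (Fin 2) (Fin 2) (ZMod p)) *ᵥ ![0, 1] := by
    intro g hg
    induction hg using Subgroup.closure_induction_left with
    | one => simpa using h1
    | mul_left x hx y _ ih =>
      rw [Units.val_mul, ← Matrix.mulVec_mulVec, hF x hx, ih, Matrix.mulVec_mulVec]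
    | inv_mul_cancel x hx y _ ih =>
      rw [Units.val_mul, ← Matrix.mulVec_mulVec, ← Matrix.mulVec_mulVec, ← ih]
      have h2 := hF x hx (((x⁻¹ : GL (Fin 2) (ZMod p)) : Matrix (Fin 2) (Fin 2) (ZMod p)) *ᵥ
        ((y : Matrix (Fin 2) (Fin 2) (ZMod p)) *ᵥ ![1, 0]))
      rw [mulVec_inv] at h2
      rw [h2, inv_mulVec]
  -- step 2
  have hinj : ∀ g ∈ Subgroup.closure S, ∀ h ∈ Subgroup.closure S,
      (g : Matrix (Fin 2) (Fin 2) (ZMod p)) *ᵥ ![1, 0]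
        = (h : Matrix (Fin 2) (Fin 2) (ZMod p)) *ᵥ ![1, 0] → g = h := by
    intro g hg h hh e
    have e2 : (g : Matrix (Fin 2) (Fin 2) (ZMod p)) *ᵥ ![0, 1]
        = (h : Matrix (Fin 2) (Fin 2) (ZMod p)) *ᵥ ![0, 1] := by
      rw [← hT g hg, ← hT h hh, e]
    rw [mulVec_e1, mulVec_e1] at e
    rw [mulVec_e2, mulVec_e2] at e2
    apply Units.ext
    ext i j
    fin_cases i <;> fin_cases j
    · simpa using congrFun e 0
    · simpa using congrFun e2 0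
    · simpa using congrFun e 1
    · simpa using congrFun e2 1
  -- step 3
  have htr : ∀ n : ℕ, ∀ w : Fin 2 → ZMod p, R w ≤ n → w ≠ 0 →
      ∃ h ∈ Subgroup.closure S, (h : Matrix (Fin 2) (Fin 2) (ZMod p)) *ᵥ ![1, 0] = w := by
    intro n
    induction n with
    | zero =>
      intro w hw hw0
      by_cases hw1 : w = ![1, 0]
      · exact ⟨1, Subgroup.one_mem _, by simp [hw1]⟩
      · obtain ⟨s, _, hs⟩ := hR w hw0 hw1
        omega
    | succ n ih =>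
      intro w hw hw0
      by_cases hw1 : w = ![1, 0]
      · exact ⟨1, Subgroup.one_mem _, by simp [hw1]⟩
      · obtain ⟨s, hsS, hs⟩ := hR w hw0 hw1
        obtain ⟨h, hh, e⟩ := ih _ (by omega) (mulVec_ne_zero s hw0)
        refine ⟨s⁻¹ * h, Subgroup.mul_mem _ (Subgroup.inv_mem _ (Subgroup.subset_closure hsS)) hh, ?_⟩
        rw [Units.val_mul, ← Matrix.mulVec_mulVec, e, inv_mulVec]
  have htr' : ∀ w : Fin 2 → ZMod p, w ≠ 0 →
      ∃ h ∈ Subgroup.closure S, (h : Matrix (Fin 2) (Fin 2) (ZMod p)) *ᵥ ![1, 0] = w :=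
    fun w hw => htr (R w) w le_rfl hw
  refine ⟨?_, ?_⟩
  · let f : Subgroup.closure S → {w : Fin 2 → ZMod p // w ≠ 0} := fun h =>
      ⟨((h : GL (Fin 2) (ZMod p)) : Matrix (Fin 2) (Fin 2) (ZMod p)) *ᵥ ![1, 0],
        mulVec_ne_zero _ he1⟩
    have hf : Function.Bijective f := by
      constructor
      · intro a b hab
        apply Subtype.ext
        exact hinj _ a.2 _ b.2 (congrArg Subtype.val hab)
      · intro w
        obtain ⟨h, hh, e⟩ := htr' w.1 w.2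
        exact ⟨⟨h, hh⟩, Subtype.ext e⟩
    rw [Nat.card_congr (Equiv.ofBijective f hf), Nat.card_eq_fintype_card,
      Fintype.card_subtype_compl, Fintype.card_subtype_eq]
    simp [ZMod.card]
  · intro v w hv hw
    obtain ⟨a, ha, ea⟩ := htr' v hv
    obtain ⟨b, hb, eb⟩ := htr' w hw
    refine ⟨⟨b * a⁻¹, Subgroup.mul_mem _ hb (Subgroup.inv_mem _ ha)⟩, ?_, ?_⟩
    · show ((b * a⁻¹ : GL (Fin 2) (ZMod p)) : Matrix (Fin 2) (Fin 2) (ZMod p)) *ᵥ v = w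
      rw [Units.val_mul, ← Matrix.mulVec_mulVec, ← ea, inv_mulVec, eb]
    · intro h hh
      have hh' : ((h : GL (Fin 2) (ZMod p)) : Matrix (Fin 2) (Fin 2) (ZMod p)) *ᵥ v = w := hh
      apply Subtype.ext
      show (h : GL (Fin 2) (ZMod p)) = b * a⁻¹
      have : (h : GL (Fin 2) (ZMod p)) * a = b := by
        apply hinj _ (Subgroup.mul_mem _ h.2 ha) _ hb
        rw [Units.val_mul, ← Matrix.mulVec_mulVec, ea, hh', eb]
      rw [← this]; group

/-- table look-ups -/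
def F2 (p T : ℕ) (a b : ZMod p) : ZMod p × ZMod p :=
  let e := T / 4096 ^ (a.val * p + b.val) % 4096
  (((e % 64 : ℕ) : ZMod p), ((e / 64 : ℕ) : ZMod p))

def R2 (p T : ℕ) (a b : ZMod p) : ℕ := T / 256 ^ (a.val * p + b.val) % 256

def GoodF (p T : ℕ) (M : Matrix (Fin 2) (Fin 2) (ZMod p)) : Prop :=
  ∀ a b : ZMod p, F2 p T (M 0 0 * a + M 0 1 * b) (M 1 0 * a + M 1 1 * b)
    = (M 0 0 * (F2 p T a b).1 + M 0 1 * (F2 p T a b).2,
       M 1 0 * (F2 p T a b).1 + M 1 1 * (F2 p T a b).2)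

def GoodR (p T : ℕ) (L : List (Matrix (Fin 2) (Fin 2) (ZMod p))) : Prop :=
  ∀ a b : ZMod p, (a = 0 ∧ b = 0) ∨ (a = 1 ∧ b = 0) ∨
    ∃ M ∈ L, R2 p T (M 0 0 * a + M 0 1 * b) (M 1 0 * a + M 1 1 * b) < R2 p T a b

instance (p T : ℕ) [NeZero p] (M : Matrix (Fin 2) (Fin 2) (ZMod p)) : Decidable (GoodF p T M) := by
  unfold GoodF; infer_instance

instance (p T : ℕ) [NeZero p] (L : List (Matrix (Fin 2) (Fin 2) (ZMod p))) :
    Decidable (GoodR p T L) := by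
  unfold GoodR; infer_instance

theorem mulVec_eq (M : Matrix (Fin 2) (Fin 2) (ZMod p)) (w : Fin 2 → ZMod p) :
    M *ᵥ w = ![M 0 0 * w 0 + M 0 1 * w 1, M 1 0 * w 0 + M 1 1 * w 1] := by
  ext i; fin_cases i <;> simp [Matrix.mulVec, dotProduct, Fin.sum_univ_two]

theorem main2 (S : Set (GL (Fin 2) (ZMod p))) (L : List (Matrix (Fin 2) (Fin 2) (ZMod p)))
    (TF TR : ℕ)
    (hSL : ∀ s ∈ S, (s : Matrix (Fin 2) (Fin 2) (ZMod p)) ∈ L)
    (hLS : ∀ M ∈ L, ∃ s ∈ S, (s : Matrix (Fin 2) (Fin 2) (ZMod p)) = M)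
    (h1 : F2 p TF 1 0 = (0, 1))
    (hF : ∀ M ∈ L, GoodF p TF M)
    (hR : GoodR p TR L) :
    Nat.card (Subgroup.closure S) = p ^ 2 - 1 ∧
      ∀ v w : Fin 2 → ZMod p, v ≠ 0 → w ≠ 0 → ∃! h : Subgroup.closure S,
        Matrix.mulVec ((h : GL (Fin 2) (ZMod p)) : Matrix (Fin 2) (Fin 2) (ZMod p)) v = w := by
  apply main S (fun w => ![(F2 p TF (w 0) (w 1)).1, (F2 p TF (w 0) (w 1)).2])
    (fun w => R2 p TR (w 0) (w 1))
  · simp [h1]
  · intro s hs w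
    have := hF _ (hSL s hs) (w 0) (w 1)
    rw [mulVec_eq, mulVec_eq]
    simp only [Matrix.cons_val_zero, Matrix.cons_val_one]
    rw [this]
  · intro w hw0 hw1
    rcases hR (w 0) (w 1) with h | h | ⟨M, hM, h⟩
    · exfalso; apply hw0; ext i; fin_cases i
      · simpa using h.1
      · simpa using h.2
    · exfalso; apply hw1; ext i; fin_cases i
      · simpa using h.1
      · simpa using h.2
    · obtain ⟨s, hs, rfl⟩ := hLS M hM
      refine ⟨s, hs, ?_⟩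
      rw [mulVec_eq]
      simpa using h

end Cfsg.Agent.Lib.Helper15.RegTab
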