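import Mathlib
import Cfsg.Agent.Lib.Helper15.RegTab

/-! Nat-level (fast) certificates for `RegTab` (helper15). -/

set_option autoImplicit false

namespace Cfsg.Agent.Lib.Helper15.RegTabN

open Matrix Cfsg.Agent.Lib.Helper15.RegTab

variable {p : ℕ} [Fact p.Prime]

abbrev Q := ℕ × ℕ × ℕ × ℕ

def toM (p : ℕ) (q : Q) : Matrix (Fin 2) (Fin 2) (ZMod p) :=
  !![(q.1 : ZMod p), (q.2.1 : ZMod p); (q.2.2.1 : ZMod p), (q.2.2.2 : ZMod p)]

def stepF (p T : ℕ) (q : Q) (a b : ℕ) : Bool :=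
  (T / 4096 ^ (((q.1 * a + q.2.1 * b) % p) * p + ((q.2.2.1 * a + q.2.2.2 * b) % p)) % 4096 % 64 % p
      == (q.1 * (T / 4096 ^ (a * p + b) % 4096 % 64) + q.2.1 * (T / 4096 ^ (a * p + b) % 4096 / 64)) % p) &&
  (T / 4096 ^ (((q.1 * a + q.2.1 * b) % p) * p + ((q.2.2.1 * a + q.2.2.2 * b) % p)) % 4096 / 64 % p
      == (q.2.2.1 * (T / 4096 ^ (a * p + b) % 4096 % 64) + q.2.2.2 * (T / 4096 ^ (a * p + b) % 4096 / 64)) % p)

def chkF (p T : ℕ) (q : Q) : Bool :=
  (List.range p).all fun a => (List.range p).all fun b => stepF p T q a b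

def stepR (p T : ℕ) (L : List Q) (a b : ℕ) : Bool :=
  (a == 0 && b == 0) || (a == 1 && b == 0) ||
    L.any fun q => decide (T / 256 ^ (((q.1 * a + q.2.1 * b) % p) * p + ((q.2.2.1 * a + q.2.2.2 * b) % p)) % 256
      < T / 256 ^ (a * p + b) % 256)

def chkR (p T : ℕ) (L : List Q) : Bool :=
  (List.range p).all fun a => (List.range p).all fun b => stepR p T L a b

theorem val_lin (x y : ℕ) (a b : ZMod p) :
    ((x : ZMod p) * a + (y : ZMod p) * b).val = (x * a.val + y * b.val) % p := by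
  have : (x : ZMod p) * a + (y : ZMod p) * b = ((x * a.val + y * b.val : ℕ) : ZMod p) := by
    push_cast
    rw [ZMod.natCast_zmod_val, ZMod.natCast_zmod_val]
  rw [this, ZMod.val_natCast]

theorem goodF_of_chk (T : ℕ) (q : Q) (h : chkF p T q = true) : GoodF p T (toM p q) := by
  intro a b
  have h1 := List.all_eq_true.mp h a.val (List.mem_range.mpr (ZMod.val_lt a))
  have h2 := List.all_eq_true.mp h1 b.val (List.mem_range.mpr (ZMod.val_lt b))
  unfold stepF at h2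
  simp only [Bool.and_eq_true, beq_iff_eq] at h2
  have e00 : toM p q 0 0 = (q.1 : ZMod p) := by simp [toM]
  have e01 : toM p q 0 1 = (q.2.1 : ZMod p) := by simp [toM]
  have e10 : toM p q 1 0 = (q.2.2.1 : ZMod p) := by simp [toM]
  have e11 : toM p q 1 1 = (q.2.2.2 : ZMod p) := by simp [toM]
  rw [e00, e01, e10, e11]
  unfold F2
  simp only [val_lin]
  refine Prod.ext ?_ ?_
  · have := (ZMod.natCast_eq_natCast_iff' _ _ p).2 h2.1
    rw [this]; push_cast; ring
  · have := (ZMod.natCast_eq_natCast_iff' _ _ p).2 h2.2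
    rw [this]; push_cast; ring

theorem goodR_of_chk (T : ℕ) (L : List Q) (h : chkR p T L = true) :
    GoodR p T (L.map (toM p)) := by
  intro a b
  have h1 := List.all_eq_true.mp h a.val (List.mem_range.mpr (ZMod.val_lt a))
  have h2 := List.all_eq_true.mp h1 b.val (List.mem_range.mpr (ZMod.val_lt b))
  unfold stepR at h2
  simp only [Bool.or_eq_true, Bool.and_eq_true, beq_iff_eq, List.any_eq_true,
    decide_eq_true_eq] at h2
  have hp1 : 1 < p := (Fact.out : p.Prime).one_lt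
  haveI : Fact (1 < p) := ⟨hp1⟩
  rcases h2 with (h2 | h2) | ⟨q, hq, h2⟩
  · left
    exact ⟨(ZMod.val_eq_zero a).1 h2.1, (ZMod.val_eq_zero b).1 h2.2⟩
  · right; left
    refine ⟨?_, (ZMod.val_eq_zero b).1 h2.2⟩
    apply ZMod.val_injective p
    rw [h2.1, ZMod.val_one]
  · right; right
    refine ⟨toM p q, List.mem_map.mpr ⟨q, hq, rfl⟩, ?_⟩
    have e00 : toM p q 0 0 = (q.1 : ZMod p) := by simp [toM]
    have e01 : toM p q 0 1 = (q.2.1 : ZMod p) := by simp [toM]
    have e10 : toM p q 1 0 = (q.2.2.1 : ZMod p) := by simp [toM]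
    have e11 : toM p q 1 1 = (q.2.2.2 : ZMod p) := by simp [toM]
    rw [e00, e01, e10, e11]
    unfold R2
    simp only [val_lin]
    exact h2

theorem main3 (S : Set (GL (Fin 2) (ZMod p))) (L : List Q) (TF TR : ℕ)
    (hSL : ∀ s ∈ S, ∃ q ∈ L, (s : Matrix (Fin 2) (Fin 2) (ZMod p)) = toM p q)
    (hLS : ∀ q ∈ L, ∃ s ∈ S, (s : Matrix (Fin 2) (Fin 2) (ZMod p)) = toM p q)
    (h1 : TF / 4096 ^ p % 4096 = 64)
    (hF : (L.all fun q => chkF p TF q) = true)
    (hR : chkR p TR L = true) :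
    Nat.card (Subgroup.closure S) = p ^ 2 - 1 ∧
      ∀ v w : Fin 2 → ZMod p, v ≠ 0 → w ≠ 0 → ∃! h : Subgroup.closure S,
        Matrix.mulVec ((h : GL (Fin 2) (ZMod p)) : Matrix (Fin 2) (Fin 2) (ZMod p)) v = w := by
  have hp1 : 1 < p := (Fact.out : p.Prime).one_lt
  haveI : Fact (1 < p) := ⟨hp1⟩
  apply main2 S (L.map (toM p)) TF TR
  · intro s hs
    obtain ⟨q, hq, e⟩ := hSL s hs
    exact List.mem_map.mpr ⟨q, hq, e.symm⟩
  · intro M hM
    obtain ⟨q, hq, rfl⟩ := List.mem_map.mp hM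
    exact hLS q hq
  · unfold F2
    simp only [ZMod.val_one, ZMod.val_zero, one_mul, add_zero, h1]
    simp
  · intro M hM
    obtain ⟨q, hq, rfl⟩ := List.mem_map.mp hM
    exact goodF_of_chk TF q (List.all_eq_true.mp hF q hq)
  · exact goodR_of_chk TR L hR

end Cfsg.Agent.Lib.Helper15.RegTabN
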