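import Mathlib
import Cfsg.Agent.Lib.Helper15.S168b

set_option autoImplicit false
set_option maxRecDepth 100000

namespace Cfsg.Agent.Lib.Helper15.S168

open Equiv

abbrev Idx := Option (Fin 7) × Fin 7 × Fin 3

def E : Idx → P8
  | (none, i, j) => a^(i:ℕ) * b^(j:ℕ)
  | (some m, i, j) => a^(m:ℕ) * t * (a^(i:ℕ) * b^(j:ℕ))

theorem E_mem (x : Idx) : E x ∈ Γ₀ := by
  have ha0 : a ∈ Γ₀ := Subgroup.subset_closure (by simp)
  have hb0 : b ∈ Γ₀ := Subgroup.subset_closure (by simp)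
  have ht0 : t ∈ Γ₀ := Subgroup.subset_closure (by simp)
  obtain ⟨m, i, j⟩ := x
  cases m with
  | none => exact Γ₀.mul_mem (Γ₀.pow_mem ha0 _) (Γ₀.pow_mem hb0 _)
  | some m =>
    exact Γ₀.mul_mem (Γ₀.mul_mem (Γ₀.pow_mem ha0 _) ht0)
      (Γ₀.mul_mem (Γ₀.pow_mem ha0 _) (Γ₀.pow_mem hb0 _))

theorem E_a : ∀ x : Idx, ∃ y : Idx, E y = a * E x := by decide +kernel
theorem E_b : ∀ x : Idx, ∃ y : Idx, E y = b * E x := by decide +kernel
theorem E_t : ∀ x : Idx, ∃ y : Idx, E y = t * E x := by decide +kernel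
theorem E_a' : ∀ x : Idx, ∃ y : Idx, E y = a⁻¹ * E x := by decide +kernel
theorem E_b' : ∀ x : Idx, ∃ y : Idx, E y = b⁻¹ * E x := by decide +kernel
theorem E_t' : ∀ x : Idx, ∃ y : Idx, E y = t⁻¹ * E x := by decide +kernel
theorem E_inj : ∀ x y : Idx, E x = E y → x = y := by decide +kernel

theorem mem_iff (σ : P8) : σ ∈ Γ₀ ↔ ∃ x, E x = σ := by
  constructor
  · intro h
    unfold Γ₀ at h
    induction h using Subgroup.closure_induction_left with
    | one => exact ⟨(none, 0, 0), by decide⟩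
    | mul_left x hx y _ ih =>
      obtain ⟨i, rfl⟩ := ih
      simp only [Set.mem_insert_iff, Set.mem_singleton_iff] at hx
      rcases hx with rfl | rfl | rfl
      · exact E_a i
      · exact E_b i
      · exact E_t i
    | inv_mul_cancel x hx y _ ih =>
      obtain ⟨i, rfl⟩ := ih
      simp only [Set.mem_insert_iff, Set.mem_singleton_iff] at hx
      rcases hx with rfl | rfl | rfl
      · exact E_a' i
      · exact E_b' i
      · exact E_t' i
  · rintro ⟨x, rfl⟩
    exact E_mem x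

noncomputable def EE : Idx ≃ Γ₀ :=
  Equiv.ofBijective (fun x => ⟨E x, E_mem x⟩)
    ⟨fun x y h => E_inj x y (congrArg Subtype.val h),
     fun σ => by obtain ⟨x, hx⟩ := (mem_iff σ.1).mp σ.2; exact ⟨x, Subtype.ext hx⟩⟩

theorem exists_param {G : Type*} [Group G] [Finite G] [IsSimpleGroup G] (h : Nat.card G = 168) :
    ∃ (κ : G ≃ Idx) (φ : G →* P8), Function.Injective φ ∧ ∀ g, φ g = E (κ g) := by
  obtain ⟨e⟩ := exists_iso h
  refine ⟨e.toEquiv.trans EE.symm, Γ₀.subtype.comp e.toMonoidHom,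
    Subtype.val_injective.comp e.injective, fun g => ?_⟩
  have h1 : EE (EE.symm (e g)) = e g := EE.apply_symm_apply _
  have h2 : (EE (EE.symm (e g)) : P8) = E (EE.symm (e g)) := rfl
  show ((e g : Γ₀) : P8) = E (EE.symm (e g))
  rw [← h2, h1]

end Cfsg.Agent.Lib.Helper15.S168
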