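import Mathlib
import Cfsg.Agent.Lib.Helper15.S168c

set_option autoImplicit false
set_option maxRecDepth 100000

namespace Cfsg.Agent.Lib.Helper15.S168

open Equiv

def ordP (σ : P8) (n : ℕ) : Prop := σ^n = 1 ∧ ∀ m < n, 0 < m → σ^m ≠ 1
instance (σ : P8) (n : ℕ) : Decidable (ordP σ n) := by unfold ordP; infer_instance
theorem ordP_iff (σ : P8) (n : ℕ) (hn : 0 < n) : orderOf σ = n ↔ ordP σ n := orderOf_eq_iff hn

theorem orders : ∀ i : Idx, ordP (E i) 1 ∨ ordP (E i) 2 ∨ ordP (E i) 3 ∨ ordP (E i) 4 ∨ ordP (E i) 7 := by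
  decide +kernel

theorem count2 : Fintype.card {i : Idx // ordP (E i) 2} = 21 := by decide +kernel
theorem count3 : Fintype.card {i : Idx // ordP (E i) 3} = 56 := by decide +kernel
theorem count4 : Fintype.card {i : Idx // ordP (E i) 4} = 42 := by decide +kernel
theorem count7 : Fintype.card {i : Idx // ordP (E i) 7} = 48 := by decide +kernel

theorem conj2 : ∀ i : Idx, ordP (E i) 2 → ∃ c : Idx, E c * E i = E (some 0, 0, 0) * E c := by
  decide +kernel
theorem conj3 : ∀ i : Idx, ordP (E i) 3 → ∃ c : Idx, E c * E i = E (none, 0, 1) * E c := by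
  decide +kernel
theorem conj4 : ∀ i : Idx, ordP (E i) 4 → ∃ c : Idx, E c * E i = E (some 3, 0, 0) * E c := by
  decide +kernel
theorem cent7 : ∀ i : Idx, ordP (E i) 7 → Fintype.card {c : Idx // E c * E i = E i * E c} = 7 := by
  decide +kernel
theorem nconj7 : ∀ i : Idx, ordP (E i) 7 → ∀ c : Idx, E c * E i ≠ (E i)⁻¹ * E c := by
  decide +kernel
theorem cent_le : ∀ i : Idx, E i ≠ 1 → Fintype.card {c : Idx // E c * E i = E i * E c} ≤ 8 := by
  decide +kernel

section transport
variable {G : Type*} [Group G] (κ : G ≃ Idx) (φ : G →* P8) (hφ : Function.Injective φ)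
  (hκ : ∀ g, φ g = E (κ g))
include hφ hκ

theorem orderOf_eq (g : G) : orderOf g = orderOf (E (κ g)) := by
  rw [← hκ, orderOf_injective φ hφ]

theorem card_order (n : ℕ) (hn : 0 < n) :
    Nat.card {g : G // orderOf g = n} = Fintype.card {i : Idx // ordP (E i) n} := by
  rw [← Nat.card_eq_fintype_card]
  exact Nat.card_congr (κ.subtypeEquiv fun g => by
    rw [orderOf_eq κ φ hφ hκ g, ordP_iff _ _ hn])

theorem isConj_iff' (s t : G) : IsConj s t ↔ ∃ c : Idx, E c * E (κ s) = E (κ t) * E c := by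
  rw [isConj_iff]
  constructor
  · rintro ⟨c, hc⟩
    refine ⟨κ c, ?_⟩
    rw [← hκ, ← hκ, ← hκ, ← map_mul, ← map_mul, ← hc]
    congr 1
    group
  · rintro ⟨c, hc⟩
    refine ⟨κ.symm c, ?_⟩
    have h1 : φ (κ.symm c) = E c := by rw [hκ, κ.apply_symm_apply]
    rw [← hκ, ← hκ, ← h1, ← map_mul, ← map_mul] at hc
    rw [hφ hc]; group

theorem card_centralizer (x : G) : Nat.card (Subgroup.centralizer ({x} : Set G)) =
    Fintype.card {c : Idx // E c * E (κ x) = E (κ x) * E c} := by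
  rw [← Nat.card_eq_fintype_card]
  refine Nat.card_congr (κ.subtypeEquiv fun g => ?_)
  rw [Subgroup.mem_centralizer_singleton_iff, ← hκ, ← hκ, ← map_mul, ← map_mul]
  exact ⟨fun h => by rw [h], fun h => hφ h⟩

end transport

end Cfsg.Agent.Lib.Helper15.S168
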