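import Mathlib
import Cfsg.Agent.Lib.Helper15.S168d

set_option autoImplicit false
set_option maxRecDepth 100000

namespace Cfsg.Agent.Lib.Helper15.S168

open Equiv

def u4 : P8 := E (some 3, 0, 0)
def s2 : P8 := E (some 6, 4, 2)

def Ffun : DihedralGroup 4 → P8
  | .r i => u4 ^ (i.val)
  | .sr i => s2 * u4 ^ (i.val)

def F : DihedralGroup 4 →* P8 := MonoidHom.mk' Ffun (by decide +kernel)

theorem F_inj : Function.Injective F := by
  intro x y h
  exact (by decide +kernel : ∀ x y : DihedralGroup 4, Ffun x = Ffun y → x = y) x y h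

def F3fun : Multiplicative (ZMod 3) → P8 := fun x => b ^ (Multiplicative.toAdd x).val
def F3 : Multiplicative (ZMod 3) →* P8 := MonoidHom.mk' F3fun (by decide +kernel)

theorem cardT : Fintype.card {i : Idx // E i ∈ F.range} = 8 := by decide +kernel
theorem cardQ : Fintype.card {i : Idx // E i ∈ F3.range} = 3 := by decide +kernel
theorem cardNQ : Fintype.card {c : Idx // ∀ j : Idx, E j ∈ F3.range ↔ E c * E j * (E c)⁻¹ ∈ F3.range} = 6 := by
  decide +kernel

theorem cardNT : Fintype.card {c : Idx // ∀ j : Idx, E j ∈ F.range ↔ E c * E j * (E c)⁻¹ ∈ F.range} = 8 := by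
  decide +kernel

section transport
variable {G : Type*} [Group G] (κ : G ≃ Idx) (φ : G →* P8) (hφ : Function.Injective φ)
  (hκ : ∀ g, φ g = E (κ g))
include hφ hκ

theorem card_comap (H0 : Subgroup P8) [DecidablePred (· ∈ H0)] :
    Nat.card (H0.comap φ) = Fintype.card {i : Idx // E i ∈ H0} := by
  rw [← Nat.card_eq_fintype_card]
  exact Nat.card_congr (κ.subtypeEquiv fun g => by rw [Subgroup.mem_comap, hκ])

theorem card_normalizer_comap (H0 : Subgroup P8) [DecidablePred (· ∈ H0)] :
    Nat.card (Subgroup.normalizer ((H0.comap φ : Subgroup G) : Set G)) =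
      Fintype.card {c : Idx // ∀ j : Idx, E j ∈ H0 ↔ E c * E j * (E c)⁻¹ ∈ H0} := by
  rw [← Nat.card_eq_fintype_card]
  refine Nat.card_congr (κ.subtypeEquiv fun g => ?_)
  rw [Subgroup.mem_normalizer_iff]
  constructor
  · intro h j
    have h1 := h (κ.symm j)
    rw [Subgroup.mem_comap, Subgroup.mem_comap, map_mul, map_mul, map_inv, hκ (κ.symm j), hκ g,
      κ.apply_symm_apply] at h1
    exact h1
  · intro h x
    have h1 := h (κ x)
    rw [Subgroup.mem_comap, Subgroup.mem_comap, map_mul, map_mul, map_inv, hκ x, hκ g]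
    exact h1

end transport

end Cfsg.Agent.Lib.Helper15.S168
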